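import Mathlib
import Cfsg.Agent.Lib.Solv.Hall
import Cfsg.Agent.Lib.NumTheory.TwoPrimes

/-!
Groups with the order and the element orders of an alternating group.
-/

set_option autoImplicit false

open Subgroup

namespace Cfsg.Lib.Recog.AltSpectrum

theorem not_mem_range_alt {n p q : ℕ} (hp : p.Prime) (hq : q.Prime) (hne : p ≠ q) (h : n < p + q) :
    p * q ∉ Set.range (orderOf : ↥(alternatingGroup (Fin n)) → ℕ) := by
  rintro ⟨σ, hσ⟩
  rw [← Subgroup.orderOf_coe, ← Equiv.Perm.lcm_cycleType] at hσ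
  have hsum : (σ : Equiv.Perm (Fin n)).cycleType.sum ≤ n := by
    rw [Equiv.Perm.sum_cycleType]; simpa using Finset.card_le_univ (σ : Equiv.Perm (Fin n)).support
  set s := (σ : Equiv.Perm (Fin n)).cycleType with hs
  have hmem : ∀ r : ℕ, r.Prime → r ∣ s.lcm → ∃ c ∈ s, r ∣ c := fun r hr hd => by
    have h1 : s.lcm ∣ s.prod := Multiset.lcm_dvd.2 fun c hc => Multiset.dvd_prod hc
    obtain ⟨c, hc, hrc⟩ := (Prime.exists_mem_multiset_dvd hr.prime (hd.trans h1))
    exact ⟨c, hc, hrc⟩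
  obtain ⟨c₁, hc₁, hd₁⟩ := hmem p hp (hσ ▸ dvd_mul_right p q)
  obtain ⟨c₂, hc₂, hd₂⟩ := hmem q hq (hσ ▸ dvd_mul_left q p)
  have hpos : ∀ c ∈ s, 0 < c := fun c hc => (zero_lt_one.trans (Equiv.Perm.one_lt_of_mem_cycleType hc))
  have h1 := Nat.le_of_dvd (hpos c₁ hc₁) hd₁
  by_cases he : c₁ = c₂
  · subst he
    have h2 := Nat.le_of_dvd (hpos c₁ hc₁) (((Nat.coprime_primes hp hq).2 hne).mul_dvd_of_dvd_of_dvd hd₁ hd₂)
    have h3 := Multiset.le_sum_of_mem hc₁
    nlinarith [hp.two_le, hq.two_le]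
  · obtain ⟨t, ht⟩ := Multiset.exists_cons_of_mem hc₁
    have h2 := Nat.le_of_dvd (hpos c₂ hc₂) hd₂
    have h3 : c₂ ∈ t := by
      rw [ht, Multiset.mem_cons] at hc₂
      exact hc₂.resolve_left (Ne.symm he)
    have h4 := Multiset.le_sum_of_mem h3
    rw [ht, Multiset.sum_cons] at hsum
    omega

theorem two_mul_card {n : ℕ} (hn : 2 ≤ n) : 2 * Nat.card ↥(alternatingGroup (Fin n)) = n.factorial := by
  haveI : Nontrivial (Fin n) := Fin.nontrivial_iff_two_le.2 hn
  rw [two_mul_nat_card_alternatingGroup, Nat.card_perm, Nat.card_fin]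

theorem prime_exact {G : Type*} [Group G] {n p : ℕ} (hn : 5 ≤ n) (hc : 2 * Nat.card G = n.factorial) (hp : p.Prime)
    (h1 : n < 2 * p) (h2 : p ≤ n) : p ∣ Nat.card G ∧ ¬ p ^ 2 ∣ Nat.card G := by
  haveI := Fact.mk hp
  have hp2 : p ≠ 2 := by omega
  refine ⟨?_, fun h => ?_⟩
  · have := (Nat.Prime.dvd_factorial hp).2 h2
    rw [← hc] at this
    exact (hp.dvd_mul.1 this).resolve_left fun h => hp2 ((Nat.prime_dvd_prime_iff_eq hp Nat.prime_two).1 h)
  · have h3 : p ^ 2 ∣ n.factorial := hc ▸ dvd_mul_of_dvd_right h 2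
    rw [padicValNat_dvd_iff_le n.factorial_ne_zero] at h3
    have h4 : padicValNat p n.factorial = n / p := by
      rw [padicValNat_factorial (b := 2) (by
        apply Nat.log_lt_of_lt_pow (by omega)
        have := hp.two_le
        nlinarith), show Finset.Ico 1 2 = {1} from rfl, Finset.sum_singleton, pow_one]
    have : n / p < 2 := (Nat.div_lt_iff_lt_mul hp.pos).2 h1
    omega

variable {G : Type*} [Group G] [Finite G]

omit [Finite G] in
theorem orderOf_mul_eq {a b : G} {p q : ℕ} (hp : p.Prime) (hq : q.Prime) (hne : p ≠ q)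
    (ha : orderOf a = p) (hb : orderOf b = q) (hab : Commute a b) : orderOf (a * b) = p * q := by
  rw [hab.orderOf_mul_eq_mul_orderOf_of_coprime (by rw [ha, hb]; exact (Nat.coprime_primes hp hq).2 hne), ha, hb]

/-- All large primes divide one simple section. -/
theorem section_exists {n : ℕ} (hn : 11 ≤ n) (hc : 2 * Nat.card G = n.factorial)
    (hs : ∀ p q : ℕ, p.Prime → q.Prime → p ≠ q → n < p + q → ∀ g : G, orderOf g ≠ p * q) :
    ∃ (N H : Subgroup G) (_ : N.Normal), H.Normal ∧ N < H ∧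
      IsSimpleGroup (↥H ⧸ N.subgroupOf H) ∧ ¬ IsMulCommutative (↥H ⧸ N.subgroupOf H) ∧
      ∀ p : ℕ, p.Prime → n < 2 * p → p ≤ n → p ∣ Nat.card (↥H ⧸ N.subgroupOf H) := by
  classical
  set Big : ℕ → Prop := fun p => p.Prime ∧ n < 2 * p ∧ p ≤ n with hBig
  obtain ⟨p₁, q₁, hp₁, hq₁, hlt, hnp, hqn⟩ := Cfsg.Agent.NumTheory.exists_two_large_primes hn
  have hB₁ : Big p₁ := ⟨hp₁, hnp, by omega⟩
  have hB₂ : Big q₁ := ⟨hq₁, by omega, hqn⟩
  have hex := fun {p} (hp : Big p) => prime_exact (G := G) (by omega) hc hp.1 hp.2.1 hp.2.2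
  obtain ⟨N, ⟨hNn, hNp⟩, hNmax⟩ := exists_maximal_of_wellFoundedGT
    (fun K : Subgroup G => K.Normal ∧ ∀ p, Big p → ¬ p ∣ Nat.card K)
    ⟨⊥, inferInstance, fun p hp h => hp.1.ne_one (Nat.dvd_one.1 (by simpa using h))⟩
  have hNtop : N < ⊤ := lt_top_iff_ne_top.2 fun h => hNp p₁ hB₁ (by rw [h, Subgroup.card_top]; exact (hex hB₁).1)
  obtain ⟨H, ⟨hHn, hNH⟩, hHmin⟩ := exists_minimal_of_wellFoundedLT
    (fun K : Subgroup G => K.Normal ∧ N < K) ⟨⊤, inferInstance, hNtop⟩
  haveI := hNn; haveI := hHn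
  have hall : ∀ q, Big q → q ∣ Nat.card H := by
    obtain ⟨p, hpB, hpH⟩ : ∃ p, Big p ∧ p ∣ Nat.card H := by
      by_contra h
      push Not at h
      exact hNH.not_ge (hNmax ⟨hHn, h⟩ hNH.le)
    intro q hqB
    by_contra hqH
    have hne : q ≠ p := fun e => hqH (e ▸ hpH)
    haveI := Fact.mk hpB.1
    haveI := Fact.mk hqB.1
    obtain ⟨P⟩ : Nonempty (Sylow p H) := inferInstance
    set P' : Subgroup G := (P : Subgroup H).map H.subtype with hP'
    have hPc : Nat.card P' = p := by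
      rw [hP', Subgroup.card_map_of_injective H.subtype_injective, P.card_eq_multiplicity]
      have h1 : (Nat.card H).factorization p = 1 := by
        have a1 := (hpB.1.dvd_iff_one_le_factorization Nat.card_pos.ne').1 hpH
        have a2 : ¬ 2 ≤ (Nat.card H).factorization p := fun h2 =>
          (hex hpB).2 (((hpB.1.pow_dvd_iff_le_factorization Nat.card_pos.ne').2 h2).trans H.card_subgroup_dvd_card)
        omega
      rw [h1, pow_one]
    set NP := Subgroup.normalizer (P' : Set G) with hNP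
    have hfr : NP ⊔ H = ⊤ := Sylow.normalizer_sup_eq_top P
    have hqN : q ∣ Nat.card NP := by
      have h1 : H.index = H.relIndex NP := by rw [← Subgroup.relIndex_top_right, ← hfr, Subgroup.relIndex_sup_right]
      have h2 : q ∣ H.index := by
        have := (hex hqB).1
        rw [← H.card_mul_index] at this
        exact (hqB.1.dvd_mul.1 this).resolve_left hqH
      rw [h1] at h2
      exact h2.trans (Subgroup.relIndex_dvd_card H NP)
    obtain ⟨y, hy⟩ := exists_prime_orderOf_dvd_card' q hqN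
    haveI : IsCyclic P' := isCyclic_of_prime_card hPc
    let φ : NP →* MulAut P' := P'.normalizerMonoidHom
    have hφ : φ y = 1 := by
      rw [← orderOf_eq_one_iff]
      have h1 : orderOf (φ y) ∣ q := hy ▸ orderOf_map_dvd φ y
      have h2 : orderOf (φ y) ∣ p - 1 := by
        have := orderOf_dvd_natCard (φ y)
        rwa [IsCyclic.card_mulAut, hPc, Nat.totient_prime hpB.1] at this
      rcases (Nat.dvd_prime hqB.1).1 h1 with h | h
      · exact h
      · exfalso
        rw [h] at h2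
        obtain ⟨c, hc'⟩ := h2
        have := hpB.2.2; have := hqB.2.1; have := hpB.1.two_le
        rcases c with _ | _ | c
        · omega
        · have h3 : p = q + 1 := by omega
          rcases hqB.1.eq_two_or_odd' with h4 | ⟨j, hj⟩
          · omega
          · have := (Nat.prime_dvd_prime_iff_eq Nat.prime_two hpB.1).1 ⟨j + 1, by omega⟩
            omega
        · have := Nat.mul_le_mul_left q (show 2 ≤ c + 1 + 1 by omega)
          omega
    obtain ⟨x, hx⟩ := exists_prime_orderOf_dvd_card' (G := P') p (by rw [hPc])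
    have hcomm : Commute (x : G) (y : G) := by
      have := congrArg Subtype.val (congrArg (fun f => f x) hφ : φ y x = x)
      have h' : (y : G) * x * (y : G)⁻¹ = x := this
      exact (mul_inv_eq_iff_eq_mul.1 h').symm
    exact hs p q hpB.1 hqB.1 hne.symm (by have := hpB.2.1; have := hqB.2.1; omega) _
      (orderOf_mul_eq hpB.1 hqB.1 hne.symm (by rw [Subgroup.orderOf_coe, hx]) (by rw [Subgroup.orderOf_coe, hy]) hcomm)
  -- the quotient
  let π := QuotientGroup.mk' N
  set Hb := H.map π with hHb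
  haveI : Hb.Normal := hHn.map π (QuotientGroup.mk'_surjective N)
  have hker : π.ker = N := QuotientGroup.ker_mk' N
  let ψ : H →* Hb := π.subgroupMap H
  have hψs : Function.Surjective ψ := π.subgroupMap_surjective H
  have hψk : ψ.ker = N.subgroupOf H := by
    ext h
    rw [MonoidHom.mem_ker, Subgroup.mem_subgroupOf, Subtype.ext_iff]
    exact QuotientGroup.eq_one_iff (h : G)
  let e : (↥H ⧸ N.subgroupOf H) ≃* Hb :=
    (QuotientGroup.quotientMulEquivOfEq hψk.symm).trans (QuotientGroup.quotientKerEquivOfSurjective ψ hψs)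
  have hsplit : Nat.card H = Nat.card Hb * Nat.card N := by
    rw [← Nat.card_congr e.toEquiv, Subgroup.card_eq_card_quotient_mul_card_subgroup (N.subgroupOf H),
      Nat.card_congr (Subgroup.subgroupOfEquivOfLe hNH.le).toEquiv]
  have hbig : ∀ q, Big q → q ∣ Nat.card Hb ∧ ¬ q ^ 2 ∣ Nat.card Hb := fun q hq => by
    have := hall q hq
    rw [hsplit] at this
    exact ⟨(hq.1.dvd_mul.1 this).resolve_right (hNp q hq), fun h => (hex hq).2 ((dvd_mul_of_dvd_left h _).trans (hsplit ▸ H.card_subgroup_dvd_card))⟩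
  have hHbmin : ∀ K : Subgroup (G ⧸ N), K.Normal → K ≤ Hb → K = ⊥ ∨ K = Hb := by
    intro K hK hKle
    haveI := hK
    by_cases hK0 : K = ⊥
    · exact Or.inl hK0
    right
    have hle : K.comap π ≤ H := by
      intro g hg
      obtain ⟨h, hh, he⟩ := hKle hg
      have : h⁻¹ * g ∈ N := QuotientGroup.eq.1 he
      simpa using H.mul_mem hh (hNH.le this)
    have hlt : N < K.comap π := by
      refine lt_of_le_of_ne (fun g hg => ?_) fun e => hK0 ?_
      · show π g ∈ K
        rw [show π g = 1 from (QuotientGroup.eq_one_iff g).2 hg]; exact K.one_mem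
      · rw [← Subgroup.map_comap_eq_self_of_surjective (QuotientGroup.mk'_surjective N) K, ← e]
        exact (Subgroup.map_eq_bot_iff _).2 hker.ge
    have := le_antisymm (hHmin ⟨inferInstance, hlt⟩ hle) hle
    rw [hHb, this, Subgroup.map_comap_eq_self_of_surjective (QuotientGroup.mk'_surjective N)]
  haveI hnt : Nontrivial Hb := by
    rw [Subgroup.nontrivial_iff_ne_bot]
    intro h
    have := (hbig p₁ hB₁).1
    rw [h, Subgroup.card_bot] at this
    exact hp₁.ne_one (Nat.dvd_one.1 this)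
  -- a minimal normal subgroup of the chief factor
  obtain ⟨L, ⟨hL0, hLH, hLn⟩, hLmin⟩ := exists_minimal_of_wellFoundedLT
    (fun L : Subgroup (G ⧸ N) => L ≠ ⊥ ∧ L ≤ Hb ∧ ∀ h ∈ Hb, ∀ l ∈ L, h * l * h⁻¹ ∈ L)
    ⟨Hb, (Subgroup.nontrivial_iff_ne_bot _).1 hnt, le_rfl, fun h hh l hl => Hb.mul_mem (Hb.mul_mem hh hl) (Hb.inv_mem hh)⟩
  have hLall : L = Hb := by
    by_contra hne
    have hLnn : ¬ L.Normal := fun h => (hHbmin L h hLH).elim hL0 hne
    obtain ⟨g, hg⟩ : ∃ g : G ⧸ N, L.map (MulAut.conj g).toMonoidHom ≠ L := by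
      by_contra h
      push Not at h
      exact hLnn ⟨fun l hl g => (h g) ▸ ⟨l, hl, rfl⟩⟩
    set M := L.map (MulAut.conj g).toMonoidHom with hM
    have hMH : M ≤ Hb := by
      rintro _ ⟨l, hl, rfl⟩
      exact (inferInstance : Hb.Normal).conj_mem l (hLH hl) g
    have hMn : ∀ h ∈ Hb, ∀ l ∈ M, h * l * h⁻¹ ∈ M := by
      rintro h hh _ ⟨l, hl, rfl⟩
      refine ⟨(g⁻¹ * h * g⁻¹⁻¹) * l * (g⁻¹ * h * g⁻¹⁻¹)⁻¹, hLn _ ((inferInstance : Hb.Normal).conj_mem h hh g⁻¹) l hl, ?_⟩
      simp [MulAut.conj_apply]; group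
    have hcardM : Nat.card M = Nat.card L := Subgroup.card_map_of_injective (MulAut.conj g).injective
    have hdis : L ⊓ M = ⊥ := by
      by_contra h0
      have := hLmin ⟨h0, inf_le_left.trans hLH, fun h hh l hl => ⟨hLn h hh l hl.1, hMn h hh l hl.2⟩⟩ inf_le_left
      have hLM : L ≤ M := this.trans inf_le_right
      exact hg (Subgroup.eq_of_le_of_card_ge hLM hcardM.le).symm
    -- the large prime lies in L
    obtain ⟨hpd, hpsq⟩ := hbig p₁ hB₁
    have hpL : p₁ ∣ Nat.card L := by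
      by_contra hpL
      obtain ⟨K, ⟨hKge, hKH, hKn, hKp⟩, hKmax⟩ := exists_maximal_of_wellFoundedGT
        (fun K : Subgroup (G ⧸ N) => L ≤ K ∧ K ≤ Hb ∧ (∀ h ∈ Hb, ∀ l ∈ K, h * l * h⁻¹ ∈ K) ∧ ¬ p₁ ∣ Nat.card K)
        ⟨L, le_rfl, hLH, hLn, hpL⟩
      have hKnn : K.Normal := ⟨fun l hl a => by
        set M := K.map (MulAut.conj a).toMonoidHom with hM
        have hMH : M ≤ Hb := by
          rintro _ ⟨l, hl, rfl⟩
          exact (inferInstance : Hb.Normal).conj_mem l (hKH hl) a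
        have hMn : ∀ h ∈ Hb, ∀ l ∈ M, h * l * h⁻¹ ∈ M := by
          rintro h hh _ ⟨l, hl, rfl⟩
          refine ⟨(a⁻¹ * h * a⁻¹⁻¹) * l * (a⁻¹ * h * a⁻¹⁻¹)⁻¹, hKn _ ((inferInstance : Hb.Normal).conj_mem h hh a⁻¹) l hl, ?_⟩
          simp [MulAut.conj_apply]; group
        haveI : (K.subgroupOf Hb).Normal := ⟨fun l hl h => hKn h h.2 l hl⟩
        haveI : (M.subgroupOf Hb).Normal := ⟨fun l hl h => hMn h h.2 l hl⟩
        set S := (M.subgroupOf Hb ⊔ K.subgroupOf Hb).map Hb.subtype with hS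
        have hSc : ¬ p₁ ∣ Nat.card S := by
          intro h
          rw [hS, Subgroup.card_map_of_injective Hb.subtype_injective,
            ← Subgroup.card_mul_index ((K.subgroupOf Hb).subgroupOf (M.subgroupOf Hb ⊔ K.subgroupOf Hb)),
            Nat.card_congr (Subgroup.subgroupOfEquivOfLe le_sup_right).toEquiv,
            Nat.card_congr (Subgroup.subgroupOfEquivOfLe hKH).toEquiv] at h
          rcases hp₁.dvd_mul.1 h with h | h
          · exact hKp h
          · have h' : p₁ ∣ (K.subgroupOf Hb).relIndex (M.subgroupOf Hb ⊔ K.subgroupOf Hb) := h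
            rw [Subgroup.relIndex_sup_right] at h'
            have h2 := h'.trans (Subgroup.relIndex_dvd_card _ _)
            rw [Nat.card_congr (Subgroup.subgroupOfEquivOfLe hMH).toEquiv, hM,
              Subgroup.card_map_of_injective (MulAut.conj a).injective] at h2
            exact hKp h2
        have hKS : K ≤ S := fun x hx => ⟨⟨x, hKH hx⟩, Subgroup.mem_sup_right hx, rfl⟩
        have := hKmax ⟨hKge.trans hKS, Subgroup.map_subtype_le _, (by
          rintro h hh _ ⟨z, hz, rfl⟩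
          exact ⟨⟨h, hh⟩ * z * ⟨h, hh⟩⁻¹, (inferInstance : (M.subgroupOf Hb ⊔ K.subgroupOf Hb).Normal).conj_mem z hz _, rfl⟩), hSc⟩ hKS
        exact this ⟨⟨_, hMH ⟨l, hl, rfl⟩⟩, Subgroup.mem_sup_left (show _ ∈ M from ⟨l, hl, rfl⟩), rfl⟩⟩
      rcases hHbmin K hKnn hKH with h | h
      · exact hL0 (le_bot_iff.1 (hKge.trans h.le))
      · exact hKp (by rw [h]; exact hpd)
    refine hpsq ?_
    have hLHn : (L.subgroupOf Hb).Normal := ⟨fun l hl h => hLn h h.2 l hl⟩
    have h1 : Nat.card L * Nat.card M ∣ Nat.card Hb := by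
      haveI := hLHn
      have h2 := Subgroup.card_mul_index (L.subgroupOf Hb)
      rw [Nat.card_congr (Subgroup.subgroupOfEquivOfLe hLH).toEquiv] at h2
      rw [← h2]
      refine Nat.mul_dvd_mul_left _ ?_
      let f : M →* ↥Hb ⧸ L.subgroupOf Hb := (QuotientGroup.mk' _).comp (Subgroup.inclusion hMH)
      have hf : Function.Injective f := by
        refine (injective_iff_map_eq_one f).2 fun m hm => Subtype.ext ?_
        have : (m : G ⧸ N) ∈ L := (QuotientGroup.eq_one_iff (N := L.subgroupOf Hb) (⟨m, hMH m.2⟩ : Hb)).1 hm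
        have h3 : (m : G ⧸ N) ∈ L ⊓ M := ⟨this, m.2⟩
        rw [hdis] at h3
        exact h3
      exact Subgroup.card_dvd_of_injective f hf
    rw [hcardM] at h1
    rw [sq]
    exact (Nat.mul_dvd_mul hpL hpL).trans h1
  haveI hsimple : IsSimpleGroup Hb := by
    refine ⟨fun K hK => ?_⟩
    by_cases hK0 : K = ⊥
    · exact Or.inl hK0
    right
    have hKL : K.map Hb.subtype ≤ L := by rw [hLall]; exact Subgroup.map_subtype_le K
    have h1 := hLmin (y := K.map Hb.subtype) ⟨fun h => hK0 ((Subgroup.map_eq_bot_iff_of_injective K Hb.subtype_injective).1 h),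
      hKL.trans hLH, ?_⟩ hKL
    · rw [hLall] at h1
      refine eq_top_iff.2 fun x _ => ?_
      obtain ⟨y, hy, he⟩ := h1 x.2
      rwa [← Subtype.ext he]
    · rintro h hh _ ⟨k, hk, rfl⟩
      exact ⟨⟨h, hh⟩ * k * ⟨h, hh⟩⁻¹, hK.conj_mem k hk _, rfl⟩
  haveI : Nontrivial (↥H ⧸ N.subgroupOf H) := e.toEquiv.nontrivial
  haveI : IsSimpleGroup (↥H ⧸ N.subgroupOf H) :=
    IsSimpleGroup.isSimpleGroup_of_surjective e.symm.toMonoidHom e.symm.surjective
  refine ⟨N, H, hNn, hHn, hNH, inferInstance, fun hcomm => ?_, fun p hp h1 h2 => ?_⟩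
  · haveI := hcomm
    letI : CommGroup (↥H ⧸ N.subgroupOf H) :=
      { (inferInstance : Group (↥H ⧸ N.subgroupOf H)) with mul_comm := fun a b => IsMulCommutative.is_comm.comm a b }
    haveI : IsSimpleGroup (↥H ⧸ N.subgroupOf H) := inferInstance
    have hpr : (Nat.card (↥H ⧸ N.subgroupOf H)).Prime := IsSimpleGroup.prime_card
    have a1 := (hbig p₁ hB₁).1
    have a2 := (hbig q₁ hB₂).1
    rw [← Nat.card_congr e.toEquiv] at a1 a2
    have b1 := (Nat.prime_dvd_prime_iff_eq hp₁ hpr).1 a1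
    have b2 := (Nat.prime_dvd_prime_iff_eq hq₁ hpr).1 a2
    omega
  · rw [Nat.card_congr e.toEquiv]
    exact (hbig p ⟨hp, h1, h2⟩).1

end Cfsg.Lib.Recog.AltSpectrum
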