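import Mathlib

/-!
# Groups regular on the nonzero vectors: the field spanned by an abelian normal subgroup
-/

set_option autoImplicit false
set_option linter.style.haveILetI false
open Subgroup

namespace Cfsg.Lib.Recog.RegLin

universe u w

variable {q : ℕ} [Fact q.Prime] {V : Type u} [AddCommGroup V] [Module (ZMod q) V]
  {G : Type w} [Group G] {ρ : G →* (V ≃ₗ[ZMod q] V)}

/-- Faithful and regular on the nonzero vectors. -/
structure Hyp (ρ : G →* (V ≃ₗ[ZMod q] V)) : Prop where
  inj : Function.Injective ρ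
  trans : ∀ v w : V, v ≠ 0 → w ≠ 0 → ∃ g : G, ρ g v = w
  reg : ∀ v : V, v ≠ 0 → ∀ g : G, ρ g v = v → g = 1

/-- The representation in endomorphisms. -/
def lin (ρ : G →* (V ≃ₗ[ZMod q] V)) : G →* Module.End (ZMod q) V where
  toFun g := (ρ g).toLinearMap
  map_one' := by rw [map_one]; rfl
  map_mul' a b := by rw [map_mul]; rfl

theorem lin_apply (g : G) (v : V) : lin ρ g v = ρ g v := rfl

theorem Hyp.lin_inj (h : Hyp ρ) : Function.Injective (lin ρ) := fun _ _ e =>
  h.inj (LinearEquiv.toLinearMap_injective e)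

theorem Hyp.fix_zero (h : Hyp ρ) {g : G} (hg : g ≠ 1) {v : V} (hv : ρ g v = v) : v = 0 := by
  by_contra hv0
  exact hg (h.reg v hv0 g hv)

theorem Hyp.card_eq [Finite V] [Finite G] [Nontrivial V] (h : Hyp ρ) :
    Nat.card G + 1 = Nat.card V := by
  classical
  haveI := Fintype.ofFinite V
  obtain ⟨v₀, hv₀⟩ := exists_ne (0 : V)
  have hne : ∀ g : G, ρ g v₀ ≠ 0 := fun g hg => hv₀ ((ρ g).map_eq_zero_iff.1 hg)
  have hb : Function.Bijective (fun g : G => (⟨ρ g v₀, hne g⟩ : {v : V // v ≠ 0})) := by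
    refine ⟨fun a b hab => ?_, fun w => ?_⟩
    · have e : ρ a v₀ = ρ b v₀ := congrArg Subtype.val hab
      have : ρ (b⁻¹ * a) v₀ = v₀ := by
        rw [map_mul, LinearEquiv.mul_apply, e, ← LinearEquiv.mul_apply, ← map_mul, inv_mul_cancel, map_one]
        rfl
      exact (inv_mul_eq_one.1 (h.reg v₀ hv₀ _ this)).symm
    · obtain ⟨g, hg⟩ := h.trans v₀ w.1 hv₀ w.2
      exact ⟨g, Subtype.ext hg⟩
  rw [Nat.card_congr (Equiv.ofBijective _ hb), Nat.card_eq_fintype_card, Nat.card_eq_fintype_card,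
    Fintype.card_subtype_compl, Fintype.card_subtype_eq]
  have := Fintype.card_pos (α := V)
  omega

theorem Hyp.dvd_card_ne [Finite V] [Finite G] [Nontrivial V] (h : Hyp ρ) {p : ℕ} (hp : p.Prime)
    (hd : p ∣ Nat.card G) : p ≠ q := by
  intro e
  have hc := Module.natCard_eq_pow_finrank (K := ZMod q) (V := V)
  rw [Nat.card_zmod, ← h.card_eq] at hc
  have hd2 : p ∣ Nat.card G + 1 := by
    rw [hc, e]
    exact dvd_pow_self q Module.finrank_pos.ne'
  exact hp.ne_one (Nat.dvd_one.1 ((Nat.dvd_add_right hd).1 hd2))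

theorem Hyp.geom_zero (h : Hyp ρ) {y : G} (hy : y ≠ 1) {p : ℕ} (hp : y ^ p = 1) (v : V) :
    ∑ j ∈ Finset.range p, ρ (y ^ j) v = 0 := by
  refine h.fix_zero hy ?_
  have e : ∀ j, ρ y (ρ (y ^ j) v) = ρ (y ^ (j + 1)) v := fun j => by
    rw [pow_succ', map_mul, LinearEquiv.mul_apply]
  rw [map_sum]
  simp only [e]
  have h1 := Finset.sum_range_succ' (fun j => ρ (y ^ j) v) p
  have h2 := Finset.sum_range_succ (fun j => ρ (y ^ j) v) p
  rw [h2, hp, pow_zero] at h1
  exact (add_right_cancel h1).symm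

theorem Hyp.prime_unique [Finite V] [Finite G] [Nontrivial V] (h : Hyp ρ) {p : ℕ} (hp : p.Prime)
    {u w : G} (hu : u ^ p = 1) (hw : w ^ p = 1) (hu1 : u ≠ 1) (hc : Commute u w) : w ∈ zpowers u := by
  by_contra hmem
  haveI := Fact.mk hp
  have ou : orderOf u = p := orderOf_eq_prime hu hu1
  have hpq : p ≠ q := h.dvd_card_ne hp (ou ▸ orderOf_dvd_natCard u)
  obtain ⟨v, hv⟩ := exists_ne (0 : V)
  have h0 : ∑ i ∈ Finset.range p, ∑ j ∈ Finset.range p, ρ ((w * u ^ i) ^ j) v = 0 :=
    Finset.sum_eq_zero fun i _ => h.geom_zero (fun e => hmem (by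
      rw [eq_inv_of_mul_eq_one_left e]
      exact inv_mem (pow_mem (mem_zpowers u) i))) (by
      rw [(hc.symm.pow_right i).mul_pow, hw, ← pow_mul, mul_comm, pow_mul, hu, one_pow, one_mul]) v
  rw [Finset.sum_comm, Finset.sum_eq_single 0] at h0
  · simp only [pow_zero, map_one, LinearEquiv.coe_one, id_eq, Finset.sum_const, Finset.card_range] at h0
    rw [← Nat.cast_smul_eq_nsmul (ZMod q), smul_eq_zero] at h0
    rcases h0 with h0 | h0
    · rw [ZMod.natCast_eq_zero_iff] at h0
      exact hpq ((Nat.prime_dvd_prime_iff_eq (Fact.out : q.Prime) hp).1 h0).symm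
    · exact hv h0
  · intro j hj hj0
    have huj : u ^ j ≠ 1 := fun e => by
      have := Nat.le_of_dvd (Nat.pos_of_ne_zero hj0) (ou ▸ orderOf_dvd_of_pow_eq_one e)
      rw [Finset.mem_range] at hj
      omega
    have e : ∀ i, ρ ((w * u ^ i) ^ j) v = ρ (w ^ j) (ρ ((u ^ j) ^ i) v) := fun i => by
      rw [(hc.symm.pow_right i).mul_pow, ← pow_mul, mul_comm i j, pow_mul, map_mul, LinearEquiv.mul_apply]
    simp only [e, ← map_sum]
    rw [h.geom_zero huj (by rw [← pow_mul, mul_comm, pow_mul, hu, one_pow]), map_zero]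
  · intro hn
    exact absurd (Finset.mem_range.2 hp.pos) hn

theorem Hyp.neg_of_invol (h : Hyp ρ) {x : G} (hx : x ^ 2 = 1) (hx1 : x ≠ 1) (v : V) : ρ x v = -v := by
  refine eq_neg_of_add_eq_zero_left (h.fix_zero hx1 ?_)
  rw [map_add, ← LinearEquiv.mul_apply, ← map_mul, ← pow_two, hx, map_one, add_comm]
  rfl

theorem Hyp.invol_unique (h : Hyp ρ) {x y : G} (hx : x ^ 2 = 1) (hx1 : x ≠ 1) (hy : y ^ 2 = 1)
    (hy1 : y ≠ 1) : x = y :=
  h.inj (LinearEquiv.ext fun v => by rw [h.neg_of_invol hx hx1, h.neg_of_invol hy hy1])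

theorem Hyp.invol_central (h : Hyp ρ) {x : G} (hx : x ^ 2 = 1) (hx1 : x ≠ 1) (g : G) : Commute x g :=
  h.inj (LinearEquiv.ext fun v => by
    rw [map_mul, map_mul, LinearEquiv.mul_apply, LinearEquiv.mul_apply, h.neg_of_invol hx hx1,
      h.neg_of_invol hx hx1, map_neg])

/-- The facts on an abelian normal subgroup that come from the field it spans. -/
theorem Hyp.span_props [Finite V] [Finite G] [Nontrivial V] (h : Hyp ρ) (A : Subgroup G) [A.Normal]
    (hA : ∀ a ∈ A, ∀ b ∈ A, Commute a b) :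
    ∃ d e : ℕ, 0 < d ∧ 0 < e ∧ Nat.card V = (q ^ d) ^ e ∧ IsCyclic A ∧ Nat.card A ∣ q ^ d - 1 ∧
      (centralizer (A : Set G)).index ∣ d ∧
      (∃ (Γ : Type u) (_ : Group Γ) (_ : IsCyclic Γ) (φ : G →* Γ), φ.ker = centralizer (A : Set G)) ∧
      (e = 1 → (∃ (F : Type) (_ : Field F) (_ : Fintype F) (ψ : V ≃+ F),
          ∀ g : G, ∃ (a : F) (σ : F ≃+* F), ∀ v : V, ψ (ρ g v) = a * σ (ψ v)) ∧
        ∀ k ∈ centralizer (A : Set G), ∀ l ∈ centralizer (A : Set G), Commute k l) := by
  classical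
  haveI : Finite (Module.End (ZMod q) V) :=
    Finite.of_injective (fun f : Module.End (ZMod q) V => (f : V → V)) DFunLike.coe_injective
  set S : Set (Module.End (ZMod q) V) := lin ρ '' (A : Set G) with hS
  set E := Algebra.adjoin (ZMod q) S with hE
  have hSc : ∀ x ∈ S, ∀ y ∈ S, Commute x y := by
    rintro _ ⟨a, ha, rfl⟩ _ ⟨b, hb, rfl⟩
    exact (hA a ha b hb).map (lin ρ)
  have hEc : ∀ x ∈ E, ∀ y ∈ E, Commute x y := fun x hx y hy => by
    refine Algebra.commute_of_mem_adjoin_of_forall_mem_commute hy fun s hs => ?_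
    exact (Algebra.commute_of_mem_adjoin_of_forall_mem_commute hx fun t ht => hSc s hs t ht).symm
  have hconj : ∀ g : G, ∀ x ∈ E, lin ρ g * x * lin ρ g⁻¹ ∈ E := by
    intro g x hx
    induction hx using Algebra.adjoin_induction with
    | mem x hx =>
      obtain ⟨a, ha, rfl⟩ := hx
      rw [← map_mul, ← map_mul]
      exact Algebra.subset_adjoin ⟨_, (inferInstance : A.Normal).conj_mem a ha g, rfl⟩
    | algebraMap r =>
      rw [← Algebra.commutes, mul_assoc, ← map_mul, mul_inv_cancel, map_one, mul_one]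
      exact E.algebraMap_mem r
    | add x y _ _ hx hy => rw [mul_add, add_mul]; exact add_mem hx hy
    | mul x y _ _ hx hy =>
      have : lin ρ g * (x * y) * lin ρ g⁻¹ = (lin ρ g * x * lin ρ g⁻¹) * (lin ρ g * y * lin ρ g⁻¹) := by
        simp only [mul_assoc]
        rw [← mul_assoc (lin ρ g⁻¹) (lin ρ g), ← map_mul, inv_mul_cancel, map_one, one_mul]
      rw [this]
      exact mul_mem hx hy
  -- all orbits of `E` have one size
  let O : V → Set V := fun v => (fun x : E => x.1 v) '' Set.univ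
  have hOle : ∀ (g : G) (v : V), (O v).ncard ≤ (O (ρ g v)).ncard := by
    intro g v
    rw [← Set.ncard_image_of_injective (O v) (ρ g).injective]
    refine Set.ncard_le_ncard ?_ (Set.toFinite _)
    rintro _ ⟨_, ⟨x, -, rfl⟩, rfl⟩
    refine ⟨⟨_, hconj g x.1 x.2⟩, trivial, ?_⟩
    show ρ g (x.1 (ρ g⁻¹ (ρ g v))) = ρ g (x.1 v)
    rw [← LinearEquiv.mul_apply (ρ g⁻¹), ← map_mul, inv_mul_cancel, map_one]
    rfl
  have hdom : ∀ x y : E, x * y = 0 → x = 0 ∨ y = 0 := by
    intro x y hxy
    have hv : ∀ v : V, x.1 v = 0 ∨ y.1 v = 0 := by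
      intro v
      by_cases hw : x.1 v = 0
      · exact Or.inl hw
      right
      have hv0 : v ≠ 0 := fun e => hw (by rw [e, map_zero])
      have hsub : O (x.1 v) ⊆ O v := by
        rintro _ ⟨r, -, rfl⟩
        exact ⟨r * x, trivial, rfl⟩
      obtain ⟨g, hg⟩ := h.trans v (x.1 v) hv0 hw
      have heq : O (x.1 v) = O v := Set.eq_of_subset_of_ncard_le hsub (hg ▸ hOle g v) (Set.toFinite _)
      obtain ⟨r, -, hr⟩ : v ∈ O (x.1 v) := heq ▸ ⟨1, trivial, rfl⟩
      have hyx : y * x = 0 := by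
        rw [show y * x = x * y from Subtype.ext (hEc _ y.2 _ x.2).eq, hxy]
      have : y.1 v = (r * (y * x)).1 v := by
        conv_lhs => rw [← hr]
        show y.1 (r.1 (x.1 v)) = r.1 (y.1 (x.1 v))
        exact LinearMap.congr_fun (hEc _ y.2 _ r.2).eq (x.1 v)
      rw [this, hyx, mul_zero]
      rfl
    by_contra hne
    push Not at hne
    obtain ⟨u, hu⟩ : ∃ u, x.1 u ≠ 0 := by
      by_contra hc
      push Not at hc
      exact hne.1 (Subtype.ext (LinearMap.ext hc))
    obtain ⟨w, hw⟩ : ∃ w, y.1 w ≠ 0 := by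
      by_contra hc
      push Not at hc
      exact hne.2 (Subtype.ext (LinearMap.ext hc))
    rcases hv (u + w) with e | e <;> rw [map_add] at e
    · rw [(hv w).resolve_right hw, add_zero] at e
      exact hu e
    · rw [(hv u).resolve_left hu, zero_add] at e
      exact hw e
  letI : CommRing E := { (inferInstance : Ring E) with mul_comm := fun x y => Subtype.ext (hEc _ x.2 _ y.2).eq }
  haveI : Nontrivial E := by
    refine ⟨1, 0, fun e => ?_⟩
    obtain ⟨v, hv⟩ := exists_ne (0 : V)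
    exact hv (LinearMap.congr_fun (congrArg Subtype.val e) v)
  haveI : NoZeroDivisors E := ⟨fun {a b} hab => hdom a b hab⟩
  haveI : IsDomain E := NoZeroDivisors.to_isDomain _
  letI : Field E := (Finite.isField_of_domain E).toField
  haveI : Finite E := inferInstance
  refine ⟨Module.finrank (ZMod q) E, Module.finrank E V, Module.finrank_pos, Module.finrank_pos, ?_, ?_, ?_, ?_, ?_, ?_⟩
  · have hcE : Nat.card E = q ^ Module.finrank (ZMod q) E := by
      have := Module.natCard_eq_pow_finrank (K := ZMod q) (V := E)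
      rwa [Nat.card_zmod] at this
    rw [← hcE]
    exact Module.natCard_eq_pow_finrank
  · let u : A →* E := ((lin ρ).comp A.subtype).codRestrict E fun a => Algebra.subset_adjoin ⟨a, a.2, rfl⟩
    exact isCyclic_of_injective u.toHomUnits fun a b e =>
      Subtype.ext (h.lin_inj (congrArg (fun z : Eˣ => ((z : E) : Module.End (ZMod q) V)) e))
  · let u : A →* E := ((lin ρ).comp A.subtype).codRestrict E fun a => Algebra.subset_adjoin ⟨a, a.2, rfl⟩
    have hu : Function.Injective u.toHomUnits := fun a b e => by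
      have e1 := congrArg (fun z : Eˣ => ((z : E) : Module.End (ZMod q) V)) e
      exact Subtype.ext (h.lin_inj e1)
    have h1 := Subgroup.card_dvd_of_injective _ hu
    rw [Nat.card_units, Module.natCard_eq_pow_finrank (K := ZMod q) (V := E), Nat.card_zmod] at h1
    exact h1
  all_goals
    let c : G → E →ₐ[ZMod q] E := fun g =>
      { toFun := fun x => ⟨lin ρ g * x.1 * lin ρ g⁻¹, hconj g x.1 x.2⟩
        map_one' := Subtype.ext (show lin ρ g * 1 * lin ρ g⁻¹ = 1 by
          rw [mul_one, ← map_mul, mul_inv_cancel, map_one])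
        map_mul' := fun x y => Subtype.ext (show lin ρ g * (x.1 * y.1) * lin ρ g⁻¹ = _ by
          show _ = (lin ρ g * x.1 * lin ρ g⁻¹) * (lin ρ g * y.1 * lin ρ g⁻¹)
          simp only [mul_assoc]
          rw [← mul_assoc (lin ρ g⁻¹) (lin ρ g), ← map_mul, inv_mul_cancel, map_one, one_mul])
        map_zero' := Subtype.ext (show lin ρ g * 0 * lin ρ g⁻¹ = 0 by rw [mul_zero, zero_mul])
        map_add' := fun x y => Subtype.ext (show lin ρ g * (x.1 + y.1) * lin ρ g⁻¹ = _ by
          rw [mul_add, add_mul]; rfl)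
        commutes' := fun r => Subtype.ext (show lin ρ g * algebraMap _ _ r * lin ρ g⁻¹ = algebraMap _ _ r by
          rw [← Algebra.commutes, mul_assoc, ← map_mul, mul_inv_cancel, map_one, mul_one]) }
    have hc1 : ∀ x, c 1 x = x := fun x => Subtype.ext (show lin ρ 1 * x.1 * lin ρ 1⁻¹ = x.1 by
      rw [inv_one, map_one, one_mul, mul_one])
    have hcm : ∀ a b x, c (a * b) x = c a (c b x) := fun a b x => Subtype.ext (show _ * x.1 * _ = _ by
      show _ = lin ρ a * (lin ρ b * x.1 * lin ρ b⁻¹) * lin ρ a⁻¹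
      rw [mul_inv_rev, map_mul, map_mul]
      simp only [mul_assoc])
    let φ : G →* (E ≃ₐ[ZMod q] E) :=
      { toFun := fun g => AlgEquiv.ofAlgHom (c g) (c g⁻¹)
          (AlgHom.ext fun x => by rw [AlgHom.comp_apply, ← hcm, mul_inv_cancel, hc1]; rfl)
          (AlgHom.ext fun x => by rw [AlgHom.comp_apply, ← hcm, inv_mul_cancel, hc1]; rfl)
        map_one' := AlgEquiv.ext hc1
        map_mul' := fun a b => AlgEquiv.ext (hcm a b) }
    have hφ : ∀ g x, ((φ g x : E) : Module.End (ZMod q) V) * lin ρ g = lin ρ g * x.1 := fun g x => by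
      show lin ρ g * x.1 * lin ρ g⁻¹ * lin ρ g = _
      rw [mul_assoc _ (lin ρ g⁻¹), ← map_mul, inv_mul_cancel, map_one, mul_one]
    have hker : φ.ker = centralizer (A : Set G) := by
      ext k
      rw [MonoidHom.mem_ker, mem_centralizer_iff]
      refine ⟨fun hk a ha => h.lin_inj ?_, fun hk => AlgEquiv.ext fun x => Subtype.ext ?_⟩
      · have := hφ k ⟨lin ρ a, Algebra.subset_adjoin ⟨a, ha, rfl⟩⟩
        rw [hk] at this
        simpa only [map_mul, AlgEquiv.one_apply] using this
      · have hkx : Commute (lin ρ k) x.1 :=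
          Algebra.commute_of_mem_adjoin_of_forall_mem_commute x.2 (by
            rintro _ ⟨a, ha, rfl⟩
            exact (show Commute k a from (hk a ha).symm).map (lin ρ))
        show lin ρ k * x.1 * lin ρ k⁻¹ = x.1
        rw [hkx.eq, mul_assoc, ← map_mul, mul_inv_cancel, map_one, mul_one]
  · rw [← hker, Subgroup.index_ker, ← IsGalois.card_aut_eq_finrank (ZMod q) E]
    exact Subgroup.card_subgroup_dvd_card _
  · exact ⟨_, inferInstance, inferInstance, φ, hker⟩
  · intro he1
    obtain ⟨v₀, hv₀⟩ := exists_ne (0 : V)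
    let θ : E →+ V :=
      { toFun := fun x => x.1 v₀, map_zero' := rfl, map_add' := fun _ _ => rfl }
    have hθi : Function.Injective θ := by
      refine (injective_iff_map_eq_zero θ).2 fun x hx => ?_
      by_contra hx0
      have h1 : ((x⁻¹ * x : E) : Module.End (ZMod q) V) v₀ = 0 := by
        show (x⁻¹ : E).1 (x.1 v₀) = 0
        rw [show x.1 v₀ = 0 from hx, map_zero]
      rw [inv_mul_cancel₀ hx0] at h1
      exact hv₀ h1
    have hθc : Nat.card E = Nat.card V := by
      have := Module.natCard_eq_pow_finrank (K := E) (V := V)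
      rw [he1, pow_one] at this
      exact this.symm
    have hθb : Function.Bijective θ := (Nat.bijective_iff_injective_and_card θ).2 ⟨hθi, hθc⟩
    constructor
    · haveI : Fintype E := Fintype.ofFinite E
      let f : {_x : Fin (Fintype.card E) // True} ≃ E := (Equiv.subtypeUnivEquiv fun _ => trivial).trans (Fintype.equivFin E).symm
      letI : Field ({_x : Fin (Fintype.card E) // True}) := f.field
      let ι : {_x : Fin (Fintype.card E) // True} ≃+* E := f.ringEquiv
      refine ⟨{_x : Fin (Fintype.card E) // True}, inferInstance, inferInstance,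
        (AddEquiv.ofBijective θ hθb).symm.trans ι.symm.toAddEquiv, fun g => ?_⟩
      obtain ⟨a, ha⟩ := hθb.2 (ρ g v₀)
      refine ⟨ι.symm a, (ι.trans (φ g).toRingEquiv).trans ι.symm, fun v => ?_⟩
      obtain ⟨x, rfl⟩ := hθb.2 v
      have e : ρ g (θ x) = θ (a * φ g x) := by
        show lin ρ g (x.1 v₀) = (a * φ g x : E).1 v₀
        rw [mul_comm a]
        show _ = ((φ g x : E) : Module.End (ZMod q) V) (a.1 v₀)
        rw [show a.1 v₀ = lin ρ g v₀ from ha]
        exact (LinearMap.congr_fun (hφ g x) v₀).symm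
      have es : ∀ y, (AddEquiv.ofBijective θ hθb).symm (θ y) = y := fun y =>
        (AddEquiv.ofBijective θ hθb).symm_apply_apply y
      simp only [AddEquiv.trans_apply, e, es, RingEquiv.toAddEquiv_eq_coe, RingEquiv.coe_toAddEquiv,
        map_mul, RingEquiv.trans_apply, RingEquiv.apply_symm_apply]
      rfl
    · intro k hk l hl
      have hlin : ∀ m ∈ centralizer (A : Set G), ∀ x : E, ρ m (x.1 v₀) = x.1 (ρ m v₀) := by
        intro m hm x
        rw [← hker, MonoidHom.mem_ker] at hm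
        have := LinearMap.congr_fun (hφ m x) v₀
        rw [hm] at this
        exact this.symm
      obtain ⟨a, ha⟩ := hθb.2 (ρ k v₀)
      obtain ⟨b, hb⟩ := hθb.2 (ρ l v₀)
      have e : ρ (k * l) v₀ = ρ (l * k) v₀ := by
        rw [map_mul, map_mul, LinearEquiv.mul_apply, LinearEquiv.mul_apply, ← ha, ← hb]
        show ρ k (b.1 v₀) = ρ l (a.1 v₀)
        rw [hlin k hk, hlin l hl, ← ha, ← hb]
        exact LinearMap.congr_fun (hEc _ b.2 _ a.2).eq v₀
      have : ρ ((l * k)⁻¹ * (k * l)) v₀ = v₀ := by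
        rw [map_mul, LinearEquiv.mul_apply, e, ← LinearEquiv.mul_apply, ← map_mul, inv_mul_cancel, map_one]
        rfl
      exact (inv_mul_eq_one.1 (h.reg v₀ hv₀ _ this)).symm

end Cfsg.Lib.Recog.RegLin
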