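import Mathlib
import Cfsg.Agent.Lib.Solv.MinNormal
import Cfsg.Agent.Lib.Recog.RegularLinearSpan

/-!
# Groups regular on the nonzero vectors: the layer above a maximal abelian normal subgroup
-/

set_option autoImplicit false
set_option linter.style.haveILetI false
open Subgroup
open scoped commutatorElement

namespace Cfsg.Lib.Recog.RegLin

variable {G : Type*} [Group G]

theorem mul_pow_class_two {x y z : G} (hyx : y * x = x * y * z) (hxz : Commute x z) (hyz : Commute y z)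
    (n : ℕ) : (x * y) ^ n = x ^ n * y ^ n * z ^ (n.choose 2) := by
  have h1 : ∀ k : ℕ, y ^ k * x = x * y ^ k * z ^ k := by
    intro k
    induction k with
    | zero => simp
    | succ k ih =>
      calc y ^ (k + 1) * x = y ^ k * (y * x) := by rw [pow_succ, mul_assoc]
        _ = (y ^ k * x) * (y * z) := by rw [hyx]; simp only [mul_assoc]
        _ = x * y ^ k * (z ^ k * y) * z := by rw [ih]; simp only [mul_assoc]
        _ = x * y ^ k * (y * z ^ k) * z := by rw [(hyz.pow_right k).eq]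
        _ = x * y ^ (k + 1) * z ^ (k + 1) := by rw [pow_succ y, pow_succ z]; simp only [mul_assoc]
  induction n with
  | zero => simp
  | succ n ih =>
    rw [pow_succ, ih, show (n + 1).choose 2 = n + n.choose 2 by rw [Nat.choose_succ_succ', Nat.choose_one_right]]
    calc x ^ n * y ^ n * z ^ n.choose 2 * (x * y)
        = x ^ n * y ^ n * (x * y * z ^ n.choose 2) := by
          rw [mul_assoc (x ^ n * y ^ n), ((hxz.symm.pow_left _).mul_right (hyz.symm.pow_left _)).eq]
      _ = x ^ n * (y ^ n * x) * (y * z ^ n.choose 2) := by simp only [mul_assoc]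
      _ = x ^ n * x * y ^ n * (z ^ n * y) * z ^ n.choose 2 := by rw [h1]; simp only [mul_assoc]
      _ = x ^ n * x * y ^ n * (y * z ^ n) * z ^ n.choose 2 := by rw [(hyz.pow_right n).eq]
      _ = _ := by rw [← pow_succ x n, pow_succ y n, pow_add z]; simp only [mul_assoc]

variable {q : ℕ} [Fact q.Prime] {V : Type*} [AddCommGroup V] [Module (ZMod q) V] [Finite V] [Nontrivial V]
  [Finite G] {ρ : G →* (V ≃ₗ[ZMod q] V)}

/-- A layer over `A`: inside the centralizer, commutators and `p`-th powers in `A`. -/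
structure Layer (A M : Subgroup G) (p : ℕ) : Prop where
  normal : M.Normal
  prime : p.Prime
  le : A ≤ M
  cen : ∀ x ∈ M, ∀ a ∈ A, Commute x a
  pow : ∀ x ∈ M, x ^ p ∈ A
  comm : ∀ x ∈ M, ∀ y ∈ M, ⁅x, y⁆ ∈ A
  big : ∃ x ∈ M, ∃ y ∈ M, ¬ Commute x y

theorem exists_layer [Group.IsSolvable G] (A N : Subgroup G) [A.Normal] [hN : N.Normal]
    (hA : ∀ a ∈ A, ∀ b ∈ A, Commute a b)
    (hmax : ∀ B : Subgroup G, B.Normal → (∀ a ∈ B, ∀ b ∈ B, Commute a b) → A ≤ B → B = A)
    (hAN : A ≤ N) (hne : N ≠ A) (hNA : ∀ x ∈ N, ∀ a ∈ A, Commute x a) :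
    ∃ (M : Subgroup G) (p : ℕ), Layer A M p ∧ M ≤ N := by
  let π := QuotientGroup.mk' A
  have hπ : Function.Surjective π := QuotientGroup.mk'_surjective A
  haveI : (N.map π).Normal := hN.map π hπ
  have hne' : N.map π ≠ ⊥ := fun e => hne (le_antisymm (fun x hx => by
    have h1 : π x ∈ N.map π := mem_map_of_mem π hx
    rwa [e, mem_bot, QuotientGroup.mk'_apply, QuotientGroup.eq_one_iff] at h1) hAN)
  obtain ⟨R, hRn, hRN, hRne, hRmin⟩ := Cfsg.Lib.Solv.exists_minimal_normal_le hne'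
  obtain ⟨hRab, p, hp, -, hRpow⟩ := Cfsg.Lib.Solv.minimal_normal_elementary hRne inferInstance hRmin
  have hle : A ≤ R.comap π := fun a ha => by
    rw [mem_comap, QuotientGroup.mk'_apply, (QuotientGroup.eq_one_iff a).2 ha]
    exact one_mem R
  have hMN : R.comap π ≤ N := fun x hx => by
    obtain ⟨y, hy, e⟩ := hRN hx
    have : y⁻¹ * x ∈ A := by
      rw [← QuotientGroup.eq]
      exact e
    simpa using mul_mem hy (hAN this)
  have hcen : ∀ x ∈ R.comap π, ∀ a ∈ A, Commute x a := fun x hx => hNA x (hMN hx)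
  refine ⟨R.comap π, p, ⟨inferInstance, hp, hle, hcen, fun x hx => ?_, fun x hx y hy => ?_, ?_⟩, hMN⟩
  · have := hRpow _ hx
    rwa [← map_pow, QuotientGroup.mk'_apply, QuotientGroup.eq_one_iff] at this
  · have h1 : Commute (π x) (π y) := congrArg Subtype.val (hRab.is_comm.comm (⟨_, hx⟩ : R) ⟨_, hy⟩)
    have h2 : π ⁅x, y⁆ = 1 := by rw [map_commutatorElement]; exact commutatorElement_eq_one_iff_commute.2 h1
    rwa [QuotientGroup.mk'_apply, QuotientGroup.eq_one_iff] at h2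
  · by_contra hc
    push Not at hc
    have e := hmax _ inferInstance hc hle
    refine hRne ((eq_bot_iff).2 fun r hr => ?_)
    obtain ⟨x, rfl⟩ := hπ r
    have hx : x ∈ R.comap π := hr
    rw [e] at hx
    exact mem_bot.2 ((QuotientGroup.eq_one_iff x).2 hx)

/-- The squares test. -/
theorem Hyp.layer_facts (h : Hyp ρ) {A M : Subgroup G} (hAc : IsCyclic A) {p : ℕ} (L : Layer A M p) :
    p = 2 ∧ ∃ a ∈ A, (∀ b ∈ A, ∃ i : ℤ, a ^ i = b) ∧ ∃ m : ℕ, orderOf a = 2 * m ∧ Odd m ∧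
      Nat.card A = 2 * m ∧
      (∀ x ∈ M, x ∉ A → ∃ k : ℤ, Odd k ∧ a ^ k = x ^ 2) ∧
      (∀ x ∈ M, ∀ y ∈ M, x ∉ A → y ∉ A → x * y ∉ A → y * x = x * y * a ^ m) := by
  haveI := Fact.mk L.prime
  obtain ⟨⟨a, ha⟩, hgen⟩ := hAc.exists_generator
  have hgen' : ∀ b ∈ A, ∃ i : ℤ, a ^ i = b := fun b hb => by
    obtain ⟨i, hi⟩ := mem_zpowers_iff.1 (hgen ⟨b, hb⟩)
    exact ⟨i, by simpa using congrArg Subtype.val hi⟩
  have hcard : Nat.card A = orderOf a := by
    rw [← orderOf_eq_card_of_forall_mem_zpowers hgen, Subgroup.orderOf_mk]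
  have hz : ∀ x ∈ M, ∀ y ∈ M, ∃ z ∈ A, y * x = x * y * z ∧ Commute x z ∧ Commute y z ∧ z ^ p = 1 := by
    intro x hx y hy
    refine ⟨(x * y)⁻¹ * (y * x), ?_, (mul_inv_cancel_left _ _).symm, ?_⟩
    · have := L.comm y⁻¹ (inv_mem hy) x⁻¹ (inv_mem hx)
      rwa [commutatorElement_def, inv_inv, inv_inv, show y⁻¹ * x⁻¹ * y * x = (x * y)⁻¹ * (y * x) by group] at this
    set z := (x * y)⁻¹ * (y * x) with hz
    have hzA : z ∈ A := by
      have := L.comm y⁻¹ (inv_mem hy) x⁻¹ (inv_mem hx)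
      rwa [commutatorElement_def, inv_inv, inv_inv, show y⁻¹ * x⁻¹ * y * x = (x * y)⁻¹ * (y * x) by group] at this
    refine ⟨L.cen x hx z hzA, L.cen y hy z hzA, ?_⟩
    have hyx : y * x = x * y * z := (mul_inv_cancel_left _ _).symm
    have h1 : ∀ k : ℕ, y ^ k * x = x * y ^ k * z ^ k := by
      intro k
      induction k with
      | zero => simp
      | succ k ih =>
        calc y ^ (k + 1) * x = y ^ k * (y * x) := by rw [pow_succ, mul_assoc]
          _ = (y ^ k * x) * (y * z) := by rw [hyx]; simp only [mul_assoc]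
          _ = x * y ^ k * (z ^ k * y) * z := by rw [ih]; simp only [mul_assoc]
          _ = x * y ^ k * (y * z ^ k) * z := by rw [((L.cen y hy z hzA).pow_right k).eq]
          _ = x * y ^ (k + 1) * z ^ (k + 1) := by rw [pow_succ y, pow_succ z]; simp only [mul_assoc]
    have h2 := h1 p
    rw [(L.cen x hx _ (L.pow y hy)).symm.eq] at h2
    exact (mul_eq_left.1 h2.symm)
  obtain ⟨x₀, hx₀, y₀, hy₀, hne⟩ := L.big
  obtain ⟨z₀, hz₀A, hz₀e, -, -, hz₀p⟩ := hz x₀ hx₀ y₀ hy₀
  have hz₀1 : z₀ ≠ 1 := fun e => hne (by rw [e, mul_one] at hz₀e; exact hz₀e.symm)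
  -- a `p`th power of an element of `A` comes only from `A`
  have htest : ∀ x ∈ M, ∀ b ∈ A, x ^ p = b ^ p → x ∈ A := by
    intro x hx b hb e
    have hxb : (x * b⁻¹) ^ p = 1 := by
      rw [(L.cen x hx _ (inv_mem hb)).mul_pow, inv_pow, e, mul_inv_cancel]
    have hm := h.prime_unique L.prime hz₀p hxb hz₀1
      (L.cen _ (mul_mem hx (L.le (inv_mem hb))) z₀ hz₀A).symm
    simpa using mul_mem ((zpowers_le.2 hz₀A) hm) hb
  have hk : ∀ x ∈ M, x ∉ A → ∃ k : ℤ, ¬ (p : ℤ) ∣ k ∧ a ^ k = x ^ p := by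
    intro x hx hxA
    obtain ⟨k, hk⟩ := hgen' _ (L.pow x hx)
    refine ⟨k, fun ⟨c, hc⟩ => hxA (htest x hx (a ^ c) (zpow_mem ha c) ?_), hk⟩
    rw [← hk, hc, ← zpow_natCast, ← zpow_mul, mul_comm]
  have hx₀A : x₀ ∉ A := fun e => hne (L.cen y₀ hy₀ x₀ e).symm
  have hy₀A : y₀ ∉ A := fun e => hne (L.cen x₀ hx₀ y₀ e)
  have hp2 : p = 2 := by
    by_contra hp2
    obtain ⟨k, hkp, hk'⟩ := hk x₀ hx₀ hx₀A
    obtain ⟨l, hlp, hl'⟩ := hk y₀ hy₀ hy₀A
    have hlz : (l : ZMod p) ≠ 0 := fun e => hlp ((ZMod.intCast_zmod_eq_zero_iff_dvd l p).1 e)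
    set j : ℕ := (-(k : ZMod p) / (l : ZMod p)).val with hj
    have hdvd : (p : ℤ) ∣ k + l * j := by
      rw [← ZMod.intCast_zmod_eq_zero_iff_dvd]
      push_cast
      rw [hj, ZMod.natCast_zmod_val, mul_div_cancel₀ _ hlz, add_neg_cancel]
    obtain ⟨c, hc⟩ := hdvd
    obtain ⟨z, hzA, hze, hxz, hyz, hzp⟩ := hz x₀ hx₀ (y₀ ^ j) (pow_mem hy₀ j)
    have e : (x₀ * y₀ ^ j) ^ p = (a ^ c) ^ p := by
      rw [mul_pow_class_two hze hxz hyz]
      obtain ⟨t, ht⟩ : p ∣ p.choose 2 :=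
        L.prime.dvd_choose_self two_ne_zero (lt_of_le_of_ne L.prime.two_le (Ne.symm hp2))
      rw [ht, pow_mul, hzp, one_pow, mul_one, ← pow_mul, mul_comm j p, pow_mul, ← hk', ← hl', ← zpow_natCast (a ^ l),
        ← zpow_mul, ← zpow_add, ← zpow_natCast (a ^ c), ← zpow_mul, hc, mul_comm]
    have hmem := htest _ (mul_mem hx₀ (pow_mem hy₀ j)) _ (zpow_mem ha c) e
    refine hne ?_
    have h1 : Commute (x₀ * y₀ ^ j) y₀ := (L.cen y₀ hy₀ _ hmem).symm
    have h2 := h1.mul_left ((Commute.refl y₀).pow_left j).inv_left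
    rwa [mul_inv_cancel_right] at h2
  subst hp2
  obtain ⟨m, hm⟩ : 2 ∣ orderOf a := by
    rw [← hcard, ← orderOf_eq_prime hz₀p hz₀1]
    exact Subgroup.orderOf_dvd_natCard A hz₀A
  have hmpos : 0 < m := by have := orderOf_pos a; omega
  have hinv : ∀ b ∈ A, b ^ 2 = 1 → b ≠ 1 → b = a ^ m := fun b _ hb hb1 => by
    refine h.invol_unique hb hb1 ?_ ?_
    · rw [← pow_mul, mul_comm, ← hm, pow_orderOf_eq_one]
    · exact pow_ne_one_of_lt_orderOf (by omega) (by omega)
  have hodd : ∀ x ∈ M, x ∉ A → ∃ k : ℤ, Odd k ∧ a ^ k = x ^ 2 := fun x hx hxA => by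
    obtain ⟨k, hk1, hk2⟩ := hk x hx hxA
    exact ⟨k, Int.not_even_iff_odd.1 (fun e => hk1 (by simpa using e.two_dvd)), hk2⟩
  -- products
  have hprod : ∀ x ∈ M, ∀ y ∈ M, x ∉ A → y ∉ A → x * y ∉ A → Odd m ∧ y * x = x * y * a ^ m := by
    intro x hx y hy hxA hyA hxyA
    obtain ⟨z, hzA, hze, hxz, hyz, hzp⟩ := hz x hx y hy
    obtain ⟨k, hko, hk2⟩ := hodd x hx hxA
    obtain ⟨l, hlo, hl2⟩ := hodd y hy hyA
    have e := mul_pow_class_two hze hxz hyz 2
    rw [Nat.choose_self, pow_one, ← hk2, ← hl2, ← zpow_add] at e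
    by_cases hz1 : z = 1
    · rw [hz1, mul_one] at e
      obtain ⟨c, hc⟩ := hko.add_odd hlo
      exact absurd (htest _ (mul_mem hx hy) (a ^ c) (zpow_mem ha c)
        (by rw [e, hc, ← zpow_natCast, ← zpow_mul]; congr 1; push_cast; ring)) hxyA
    rw [hinv z hzA hzp hz1] at hze e
    refine ⟨Nat.not_even_iff_odd.1 fun hme => ?_, hze⟩
    rw [← zpow_natCast a m, ← zpow_add] at e
    obtain ⟨c, hc⟩ := (hko.add_odd hlo).add ((Int.even_coe_nat m).2 hme)
    exact hxyA (htest _ (mul_mem hx hy) (a ^ c) (zpow_mem ha c)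
      (by rw [e, hc, ← zpow_natCast, ← zpow_mul]; congr 1; push_cast; ring))
  have hxy₀ : x₀ * y₀ ∉ A := fun e => hne (by
    have h1 : Commute (x₀ * y₀) y₀ := (L.cen y₀ hy₀ _ e).symm
    have h2 := h1.mul_left (Commute.refl y₀).inv_left
    rwa [mul_inv_cancel_right] at h2)
  exact ⟨rfl, a, ha, hgen', m, hm, (hprod x₀ hx₀ y₀ hy₀ hx₀A hy₀A hxy₀).1, by rw [hcard, hm], hodd,
    fun x hx y hy h1 h2 h3 => (hprod x hx y hy h1 h2 h3).2⟩

/-- The structure over a maximal abelian normal subgroup that is not self-centralizing. -/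
theorem Hyp.over_max [Group.IsSolvable G] (h : Hyp ρ) (A : Subgroup G) [A.Normal] (hAc : IsCyclic A)
    (hmax : ∀ B : Subgroup G, B.Normal → (∀ a ∈ B, ∀ b ∈ B, Commute a b) → A ≤ B → B = A)
    (hne : centralizer (A : Set G) ≠ A) :
    ∃ (M : Subgroup G) (m : ℕ) (f : G →* Equiv.Perm (Fin 3)), Layer A M 2 ∧ Odd m ∧ Nat.card A = 2 * m ∧
      Nat.card M = 4 * Nat.card A ∧ M ≤ centralizer (A : Set G) ∧ f.ker ⊓ centralizer (A : Set G) = M ∧
      (∀ g : G, (∀ w ∈ M, Commute g w) → g ∈ A) ∧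
      ∀ w ∈ M, ∃ b ∈ A, (w * b) ^ 4 = 1 := by
  classical
  haveI := hAc.isMulCommutative (α := A)
  have hA : ∀ a ∈ A, ∀ b ∈ A, Commute a b := fun a ha b hb =>
    congrArg Subtype.val (IsMulCommutative.is_comm.comm (⟨a, ha⟩ : A) ⟨b, hb⟩)
  have hAle : A ≤ centralizer (A : Set G) := fun a ha => mem_centralizer_iff.2 fun b hb => hA b hb a ha
  have hcA : ∀ x ∈ centralizer (A : Set G), ∀ a ∈ A, Commute x a := fun x hx a ha =>
    (mem_centralizer_iff.1 hx a ha).symm
  obtain ⟨M, p, L, hMD⟩ := exists_layer A (centralizer (A : Set G)) hA hmax hAle hne hcA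
  obtain ⟨rfl, a, ha, hgen, m, hm, hmo, hcard, hsq, hanti⟩ := h.layer_facts hAc L
  haveI := L.normal
  obtain ⟨x, hx, y, hy, hnc⟩ := L.big
  have hxA : x ∉ A := fun e => hnc (L.cen y hy x e).symm
  have hyA : y ∉ A := fun e => hnc (L.cen x hx y e)
  have hcomm_of : ∀ u ∈ M, ∀ v ∈ M, u * v ∈ A → Commute u v := fun u hu v hv e => by
    have h1 : Commute (u * v) v := (L.cen v hv _ e).symm
    have h2 := h1.mul_left (Commute.refl v).inv_left
    rwa [mul_inv_cancel_right] at h2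
  have hxy : x * y ∉ A := fun e => hnc (hcomm_of x hx y hy e)
  have hsqA : ∀ w ∈ M, w ^ 2 ∈ A := L.pow
  have hz1 : a ^ m ≠ 1 := pow_ne_one_of_lt_orderOf (by have := orderOf_pos a; omega) (by have := orderOf_pos a; omega)
  have hz2 : (a ^ m) ^ 2 = 1 := by rw [← pow_mul, mul_comm, ← hm, pow_orderOf_eq_one]
  have hz : ∀ g : G, Commute (a ^ m) g := h.invol_central hz2 hz1
  have hcover : ∀ w ∈ M, w ∈ A ∨ w * x ∈ A ∨ w * y ∈ A ∨ w * (x * y) ∈ A := by
    intro w hw
    by_contra hc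
    push Not at hc
    obtain ⟨h1, h2, h3, h4⟩ := hc
    have e1 := hanti w hw x hx h1 hxA h2
    have e2 := hanti w hw y hy h1 hyA h3
    have e3 := hanti w hw (x * y) (mul_mem hx hy) h1 hxy h4
    have e4 : x * y * w = w * (x * y) := by
      calc x * y * w = x * (y * w) := mul_assoc _ _ _
        _ = x * w * y * a ^ m := by rw [e2]; simp only [mul_assoc]
        _ = w * x * (a ^ m * y) * a ^ m := by rw [e1]; simp only [mul_assoc]
        _ = w * x * y * (a ^ m) ^ 2 := by rw [(hz y).eq, pow_two]; simp only [mul_assoc]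
        _ = w * (x * y) := by rw [hz2, mul_one, mul_assoc]
    rw [e4] at e3
    exact hz1 (mul_eq_left.1 e3.symm)
  -- centralizer of `M`
  have hCM : ∀ g : G, (∀ w ∈ M, Commute g w) → g ∈ A := by
    intro g hg
    by_contra hgA
    haveI : (centralizer (M : Set G)).Normal := inferInstance
    have hAM : A ≤ centralizer (M : Set G) := fun b hb => mem_centralizer_iff.2 fun w hw => L.cen w hw b hb
    have hCne : centralizer (M : Set G) ≠ A := fun e =>
      hgA (e ▸ mem_centralizer_iff.2 fun w hw => (hg w hw).symm)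
    obtain ⟨M', p', L', hM'⟩ := exists_layer A (centralizer (M : Set G)) hA hmax hAM hCne
      (fun u hu b hb => (mem_centralizer_iff.1 hu b (L.le hb)).symm)
    obtain ⟨rfl, a', ha', hgen', m', -, -, -, hsq', -⟩ := h.layer_facts hAc L'
    obtain ⟨u, hu, v, hv, huv⟩ := L'.big
    have huA : u ∉ A := fun e => huv (L'.cen v hv u e).symm
    have huM : ∀ w ∈ M, Commute u w := fun w hw => (mem_centralizer_iff.1 (hM' hu) w hw).symm
    -- a product of two nonsquares is a square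
    have hmemA : ∀ w ∈ M, w ∉ A → u * w ∈ A := by
      intro w hw hwA
      obtain ⟨k, hko, hk⟩ := hsq w hw hwA
      obtain ⟨l, hl⟩ := hgen _ (L'.pow u hu)
      have hlo : Odd l := by
        by_contra hle
        obtain ⟨c, hc⟩ := Int.not_odd_iff_even.1 hle
        apply huA
        have hub : (u * (a ^ c)⁻¹) ^ 2 = 1 := by
          rw [(L'.cen u hu _ (inv_mem (zpow_mem ha c))).mul_pow, ← hl, inv_pow, ← zpow_natCast (a ^ c), ← zpow_mul,
            hc, show c * ((2 : ℕ) : ℤ) = c + c by push_cast; ring, mul_inv_cancel]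
        by_cases hub1 : u * (a ^ c)⁻¹ = 1
        · rw [mul_inv_eq_one.1 hub1]; exact zpow_mem ha c
        · have := h.invol_unique hub hub1 hz2 hz1
          rw [mul_inv_eq_iff_eq_mul.1 this]
          exact mul_mem (pow_mem ha m) (zpow_mem ha c)
      obtain ⟨c, hc⟩ := hlo.add_odd hko
      have hub : (u * w * (a ^ c)⁻¹) ^ 2 = 1 := by
        have hcw : Commute (u * w) (a ^ c)⁻¹ :=
          (L'.cen u hu _ (inv_mem (zpow_mem ha c))).mul_left (L.cen w hw _ (inv_mem (zpow_mem ha c)))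
        rw [hcw.mul_pow, (huM w hw).mul_pow, ← hl, ← hk, ← zpow_add, inv_pow, ← zpow_natCast (a ^ c), ← zpow_mul,
          hc, show c * ((2 : ℕ) : ℤ) = c + c by push_cast; ring, mul_inv_cancel]
      by_cases hub1 : u * w * (a ^ c)⁻¹ = 1
      · rw [mul_inv_eq_one.1 hub1]; exact zpow_mem ha c
      · have := h.invol_unique hub hub1 hz2 hz1
        rw [mul_inv_eq_iff_eq_mul.1 this]
        exact mul_mem (pow_mem ha m) (zpow_mem ha c)
    have h1 := hmemA x hx hxA
    have h2 := hmemA y hy hyA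
    have h3 : Commute (u * x) y := (L.cen y hy _ h1).symm
    have h4 := (huM y hy).inv_left.mul_left h3
    rw [inv_mul_cancel_left] at h4
    exact hnc h4
  -- the quotient of order four
  let π := QuotientGroup.mk' A
  haveI : (M.map π).Normal := L.normal.map π (QuotientGroup.mk'_surjective A)
  have hmemπ : ∀ w : G, π w = 1 ↔ w ∈ A := fun w => QuotientGroup.eq_one_iff w
  have hπinv : ∀ w ∈ M, (π w)⁻¹ = π w := fun w hw => by
    rw [inv_eq_iff_mul_eq_one, ← map_mul, hmemπ, ← pow_two]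
    exact hsqA w hw
  have hM4 : Nat.card (M.map π) = 4 := by
    have hne' : ∀ u ∈ M, ∀ v ∈ M, u * v ∉ A → π u ≠ π v := fun u hu v hv huv e => huv (by
      rw [← hmemπ, map_mul, e]
      nth_rw 1 [← hπinv v hv]
      exact inv_mul_cancel _)
    have hset : ((M.map π : Subgroup (G ⧸ A)) : Set (G ⧸ A)) = ↑({1, π x, π y, π (x * y)} : Finset (G ⧸ A)) := by
      ext r
      simp only [coe_map, Set.mem_image, SetLike.mem_coe, Finset.coe_insert, Finset.coe_singleton,
        Set.mem_insert_iff, Set.mem_singleton_iff]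
      constructor
      · rintro ⟨w, hw, rfl⟩
        rcases hcover w hw with e | e | e | e <;> rw [← hmemπ] at e
        · exact Or.inl e
        · rw [map_mul, mul_eq_one_iff_eq_inv, hπinv x hx] at e; exact Or.inr (Or.inl e)
        · rw [map_mul, mul_eq_one_iff_eq_inv, hπinv y hy] at e; exact Or.inr (Or.inr (Or.inl e))
        · rw [map_mul, mul_eq_one_iff_eq_inv, hπinv _ (mul_mem hx hy)] at e; exact Or.inr (Or.inr (Or.inr e))
      · rintro (rfl | rfl | rfl | rfl)
        exacts [⟨1, one_mem M, map_one π⟩, ⟨x, hx, rfl⟩, ⟨y, hy, rfl⟩, ⟨_, mul_mem hx hy, rfl⟩]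
    have hc : Nat.card (M.map π) = ((M.map π : Subgroup (G ⧸ A)) : Set (G ⧸ A)).ncard := (Nat.card_coe_set_eq _)
    rw [hc, hset, Set.ncard_coe_finset]
    have n1 : (1 : G ⧸ A) ≠ π x := fun e => hxA ((hmemπ x).1 e.symm)
    have n2 : (1 : G ⧸ A) ≠ π y := fun e => hyA ((hmemπ y).1 e.symm)
    have n3 : (1 : G ⧸ A) ≠ π (x * y) := fun e => hxy ((hmemπ _).1 e.symm)
    have n4 : π x ≠ π y := hne' x hx y hy hxy
    have n5 : π x ≠ π (x * y) := fun e => n2 (by rw [map_mul, left_eq_mul] at e; exact e.symm)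
    have n6 : π y ≠ π (x * y) := fun e => n1 (by rw [map_mul, right_eq_mul] at e; exact e.symm)
    simp [n1, n2, n3, n4, n5, n6, -map_mul]
  have hMcard : Nat.card M = 4 * Nat.card A := by
    have e := (π.comp M.subtype).ker.card_mul_index
    rw [Subgroup.index_ker, MonoidHom.range_comp, range_subtype, hM4, ← MonoidHom.comap_ker] at e
    rw [← e, mul_comm]
    congr 1
    have hk : (MonoidHom.ker π).comap M.subtype = A.subgroupOf M := by rw [QuotientGroup.ker_mk']; rfl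
    exact (Nat.card_congr (MulEquiv.subgroupCongr hk).toEquiv).trans
      (Nat.card_congr (Subgroup.subgroupOfEquivOfLe L.le).toEquiv)
  -- action on the three involutions of the quotient
  let T := {r : M.map π // r ≠ 1}
  have hT : Nat.card T = 3 := by
    haveI := Fintype.ofFinite (M.map π)
    rw [Nat.card_eq_fintype_card, Fintype.card_subtype_compl, Fintype.card_subtype_eq, ← Nat.card_eq_fintype_card,
      hM4]
  let c : G →* MulAut (M.map π) := MulAut.conjNormal.comp π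
  let t : MulAut (M.map π) →* Equiv.Perm T :=
    { toFun := fun σ => σ.toEquiv.subtypeEquiv fun r => (σ.map_ne_one_iff).symm
      map_one' := rfl
      map_mul' := fun _ _ => rfl }
  obtain ⟨ε⟩ : Nonempty (T ≃ Fin 3) := ⟨(Finite.equivFinOfCardEq hT)⟩
  let f : G →* Equiv.Perm (Fin 3) := (ε.permCongrHom.toMonoidHom).comp (t.comp c)
  refine ⟨M, m, f, L, hmo, hcard, hMcard, hMD, le_antisymm ?_ ?_, hCM, ?_⟩
  · rintro g ⟨hgf, hgD⟩
    have hfix : ∀ w ∈ M, (g * w * g⁻¹)⁻¹ * w ∈ A := by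
      intro w hw
      by_cases hwA : w ∈ A
      · exact mul_mem (inv_mem ((inferInstance : A.Normal).conj_mem w hwA g)) hwA
      have hr : (⟨π w, mem_map_of_mem π hw⟩ : M.map π) ≠ 1 := fun e => hwA ((hmemπ w).1 (congrArg Subtype.val e))
      have ht : t (c g) = 1 := ε.permCongrHom.injective (by rw [map_one]; exact hgf)
      have h1 := congrArg (fun σ : Equiv.Perm T => ((σ ⟨_, hr⟩).1 : G ⧸ A)) ht
      have h2 : π (g * w * g⁻¹) = π w := by
        rw [map_mul, map_mul, map_inv]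
        exact h1
      rw [← hmemπ, map_mul, map_inv, h2, inv_mul_cancel]
    -- conjugates differ at most by the involution
    have htwo : ∀ w ∈ M, g * w * g⁻¹ = w ∨ g * w * g⁻¹ = w * a ^ m := by
      intro w hw
      have hb := hfix w hw
      set b := (g * w * g⁻¹)⁻¹ * w with hbdef
      have hw' : g * w * g⁻¹ * b = w := mul_inv_cancel_left _ _
      have hgw : g * w * g⁻¹ ∈ M := L.normal.conj_mem w hw g
      have hb2 : b ^ 2 = 1 := by
        have h2 : (g * w * g⁻¹) ^ 2 = w ^ 2 := by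
          rw [conj_pow, (hcA g hgD _ (hsqA w hw)).eq, mul_inv_cancel_right]
        have h3 := (L.cen _ hgw b hb).mul_pow 2
        rw [hw', h2] at h3
        exact mul_eq_left.1 h3.symm
      by_cases hb1 : b = 1
      · left; rw [hb1, mul_one] at hw'; exact hw'
      · right
        rw [h.invol_unique hb2 hb1 hz2 hz1] at hw'
        calc g * w * g⁻¹ = g * w * g⁻¹ * (a ^ m) ^ 2 := by rw [hz2, mul_one]
          _ = g * w * g⁻¹ * a ^ m * a ^ m := by rw [pow_two, ← mul_assoc]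
          _ = w * a ^ m := by rw [hw']
    have exy : y * x * y⁻¹ = x * a ^ m := by
      rw [mul_inv_eq_iff_eq_mul, hanti x hx y hy hxA hyA hxy, mul_assoc x (a ^ m), (hz y).eq, mul_assoc]
    have eyx : x * y * x⁻¹ = y * a ^ m := by
      have e := hanti x hx y hy hxA hyA hxy
      rw [mul_inv_eq_iff_eq_mul, mul_assoc y (a ^ m), (hz x).eq, ← mul_assoc, e, mul_assoc, ← pow_two, hz2, mul_one]
    have hreduce : ∀ g' : G, g' ∈ centralizer (A : Set G) → g' * x * g'⁻¹ = x → g' * y * g'⁻¹ = y → g' ∈ A := by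
      intro g' hg' hx' hy'
      refine hCM g' fun w hw => ?_
      have cx : Commute g' x := mul_inv_eq_iff_eq_mul.1 hx'
      have cy : Commute g' y := mul_inv_eq_iff_eq_mul.1 hy'
      rcases hcover w hw with e | e | e | e
      · exact hcA g' hg' w e
      · simpa using (hcA g' hg' _ e).mul_right cx.inv_right
      · simpa using (hcA g' hg' _ e).mul_right cy.inv_right
      · simpa [mul_assoc] using (hcA g' hg' _ e).mul_right (cx.mul_right cy).inv_right
    have hconjz : ∀ s : G, ∀ w, s * (w * a ^ m) * s⁻¹ = s * w * s⁻¹ * a ^ m := fun s w => by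
      rw [mul_assoc (s * w), ((hz s⁻¹).symm).eq]; simp only [mul_assoc]
    have hzz : ∀ w : G, w * a ^ m * a ^ m = w := fun w => by rw [mul_assoc, ← pow_two, hz2, mul_one]
    have hcomp : ∀ s w : G, (s * g) * w * (s * g)⁻¹ = s * (g * w * g⁻¹) * s⁻¹ := fun s w => by group
    have hD : ∀ s ∈ M, s * g ∈ centralizer (A : Set G) := fun s hs => mul_mem (hMD hs) hgD
    have hfin : ∀ s ∈ M, s * g ∈ A → g ∈ M := fun s hs e => by
      simpa using mul_mem (inv_mem hs) (L.le e)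
    have hxx : x * x * x⁻¹ = x := mul_inv_cancel_right _ _
    have hyy : y * y * y⁻¹ = y := mul_inv_cancel_right _ _
    rcases htwo x hx with e1 | e1 <;> rcases htwo y hy with e2 | e2
    · exact L.le (hreduce g hgD e1 e2)
    · exact hfin x hx (hreduce _ (hD x hx) (by rw [hcomp, e1, hxx]) (by rw [hcomp, e2, hconjz, eyx, hzz]))
    · exact hfin y hy (hreduce _ (hD y hy) (by rw [hcomp, e1, hconjz, exy, hzz]) (by rw [hcomp, e2, hyy]))
    · refine hfin _ (mul_mem hx hy) (hreduce _ (hD _ (mul_mem hx hy)) ?_ ?_)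
      · rw [hcomp, e1, show x * y * (x * a ^ m) * (x * y)⁻¹ = x * (y * (x * a ^ m) * y⁻¹) * x⁻¹ by group, hconjz, exy,
          hzz, hxx]
      · rw [hcomp, e2, show x * y * (y * a ^ m) * (x * y)⁻¹ = x * (y * (y * a ^ m) * y⁻¹) * x⁻¹ by group, hconjz y, hyy,
          hconjz, eyx, hzz]
  · intro g hg
    refine ⟨?_, hMD hg⟩
    show ε.permCongrHom (t (c g)) = 1
    suffices hc' : t (c g) = 1 by rw [hc', map_one]
    refine Equiv.ext fun r => Subtype.ext (Subtype.ext ?_)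
    obtain ⟨w, hw, hwr⟩ := r.1.2
    show π g * (r.1 : G ⧸ A) * (π g)⁻¹ = (r.1 : G ⧸ A)
    rw [← hwr, ← map_inv, ← map_mul, ← map_mul]
    refine (inv_mul_eq_one.1 ?_).symm
    rw [← map_inv, ← map_mul, hmemπ]
    have := L.comm w⁻¹ (inv_mem hw) g hg
    rwa [commutatorElement_def, inv_inv, show w⁻¹ * g * w * g⁻¹ = w⁻¹ * (g * w * g⁻¹) by group] at this
  · intro w hw
    -- cancel the odd part of `w ^ 2`
    obtain ⟨i, hi⟩ := hgen _ (hsqA w hw)
    obtain ⟨n, hn⟩ := hmo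
    refine ⟨a ^ (i * n), zpow_mem ha _, ?_⟩
    rw [(L.cen w hw _ (zpow_mem ha _)).mul_pow, show (4 : ℕ) = 2 * 2 from rfl, pow_mul, ← hi]
    rw [← zpow_natCast _ 2, ← zpow_natCast _ (2 * 2), ← zpow_mul, ← zpow_mul, ← zpow_add]
    refine orderOf_dvd_iff_zpow_eq_one.1 ⟨i, ?_⟩
    rw [hm, hn]
    push_cast
    ring

end Cfsg.Lib.Recog.RegLin
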