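import Mathlib
import Cfsg.Agent.Lib.Recog.SimplePSLTwoPrime

/-!
A simple group of order `1092` is `PSL(2, 13)`.
-/

set_option autoImplicit false
set_option maxHeartbeats 400000

namespace Cfsg.Lib.Recog.SimplePSLTwo

open Matrix
open scoped MatrixGroups Pointwise

/-- `13` is prime. -/
theorem fact_thirteen : Fact (Nat.Prime 13) := ⟨by norm_num⟩

attribute [local instance] fact_thirteen

/-- The candidate permutation. -/
def cand (A B : ZMod 13) : Option (ZMod 13) → Option (ZMod 13)
  | none => some 0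
  | some x => if x = 0 then none else if x ^ 6 = 1 then some (A * x ^ 11) else some (B * x ^ 11)

/-- Translations. -/
def shift (i : ZMod 13) : Option (ZMod 13) → Option (ZMod 13)
  | none => none
  | some x => some (x + i)

/-- A word fixing infinity. -/
def word (A B : ZMod 13) (y : Option (ZMod 13)) : Option (ZMod 13) :=
  cand A B (shift (-A) (cand A B (shift 1 (cand A B y))))

theorem affine_word : ∀ A B : ZMod 13, A ≠ 0 → B ≠ 0 → ∀ s u : ZMod 13,
    word A B (some 0) = some s → word A B (some 1) = some u → (u - s) ^ 6 = 1 →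
    (∀ x : ZMod 13, word A B (some x) = some ((u - s) * x + s)) → A = B ∧ A ^ 6 = 1 := by
  decide +kernel

theorem inv_eq_pow : ∀ x : ZMod 13, x ≠ 0 → x * x ^ 11 = 1 := by decide +kernel

theorem sixth_roots : ∀ r : ZMod 13, r ^ 6 = 1 → r = 1 ∨ r = 3 ∨ r = 9 ∨ r = -1 ∨ r = -3 ∨ r = -9 := by
  decide +kernel

theorem cube_roots : ∀ r : ZMod 13, r * (r * r) = 1 → r ≠ 1 → r = 3 ∨ r = 9 := by decide +kernel

theorem sixth_cases : ∀ x : ZMod 13, x ≠ 0 → x ^ 6 = 1 ∨ (x * 7) ^ 6 = 1 := by decide +kernel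

theorem seven_two : ∀ x : ZMod 13, x * 7 * 2 = x := by decide +kernel

theorem word_none : ∀ A B : ZMod 13, A ≠ 0 → word A B none = none := by decide +kernel

/-- The recognition theorem. -/
theorem nonempty_equiv_thirteen {G : Type*} [Group G] [Finite G] [IsSimpleGroup G]
    (hG' : Nat.card G = 1092) :
    Nonempty (G ≃* Matrix.ProjectiveSpecialLinearGroup (Fin 2) (ZMod 13)) := by
  classical
  obtain ⟨p, hpdef⟩ : ∃ p : ℕ, p = 13 := ⟨13, rfl⟩
  obtain ⟨k, hkdef⟩ : ∃ k : ℕ, k = 6 := ⟨6, rfl⟩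
  haveI hfp : Fact p.Prime := ⟨hpdef ▸ Fact.out⟩
  have hp := (Fact.out : p.Prime)
  have hk : 2 * k + 1 = p := by omega
  have hG : Nat.card G = p * (p + 1) * k := by rw [hG', hpdef, hkdef]
  have hn : ∀ n : ℕ, n ∣ (p + 1) * k → n % p = 1 → n = 1 ∨ n = p + 1 := by
    subst hpdef; subst hkdef
    intro n hn hn7
    have := Nat.le_of_dvd (by norm_num) hn
    interval_cases n <;> first | omega | (norm_num at hn)
  have hp5 : 5 ≤ p := by omega
  obtain ⟨P⟩ : Nonempty (Sylow p G) := inferInstance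
  -- the Sylow subgroup
  have hPcard : Nat.card P = p := by
    obtain ⟨j, hj⟩ := IsPGroup.iff_card.1 P.isPGroup'
    have h1 := (P : Subgroup G).card_mul_index
    rw [hj, hG] at h1
    have hcopp : ¬ p ∣ (p + 1) * k := fun h => by
      rcases hp.dvd_mul.1 h with h | h
      · rw [Nat.dvd_add_right dvd_rfl] at h
        exact hp.not_dvd_one h
      · exact absurd (Nat.le_of_dvd (by omega) h) (by omega)
    rcases j with _ | _ | j
    · exfalso
      rw [pow_zero, one_mul] at h1
      refine P.not_dvd_index ?_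
      rw [h1]
      exact (dvd_mul_right p (p + 1)).mul_right k
    · rw [hj, pow_one]
    · exfalso
      apply hcopp
      refine ⟨p ^ j * (P : Subgroup G).index, Nat.eq_of_mul_eq_mul_left hp.pos ?_⟩
      rw [← mul_assoc p (p + 1) k, ← h1]
      ring
  have hPidx : (P : Subgroup G).index = (p + 1) * k := by
    have h1 := (P : Subgroup G).card_mul_index
    rw [hPcard, hG, mul_assoc] at h1
    exact Nat.eq_of_mul_eq_mul_left hp.pos h1
  have hn1 : Nat.card (Sylow p G) = p + 1 := by
    refine (hn _ (hPidx ▸ P.card_dvd_index) ?_).resolve_left fun h1 => ?_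
    · have := card_sylow_modEq_one p G
      unfold Nat.ModEq at this
      rw [this, Nat.mod_eq_of_lt hp.one_lt]
    · haveI : Subsingleton (Sylow p G) := (Nat.card_eq_one_iff_unique.1 h1).1
      haveI := P.characteristic_of_subsingleton
      rcases (inferInstance : (P : Subgroup G).Normal).eq_bot_or_eq_top with h | h
      · rw [h, Subgroup.card_bot] at hPcard
        omega
      · rw [h, Subgroup.card_top, hG] at hPcard
        subst hpdef; subst hkdef; omega
  obtain ⟨⟨t, htP⟩, ht⟩ := exists_prime_orderOf_dvd_card' (G := P) p (by rw [hPcard])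
  rw [Subgroup.orderOf_mk] at ht
  have hPt : (P : Subgroup G) = Subgroup.zpowers t :=
    (Subgroup.eq_of_le_of_card_ge (Subgroup.zpowers_le.2 htP) (by rw [Nat.card_zpowers, ht, hPcard])).symm
  have htfix : t • P = P := Sylow.smul_eq_iff_mem_normalizer.2 (Subgroup.le_normalizer htP)
  have honly : ∀ R : Sylow p G, t • R = R → R = P := by
    intro R hR
    have hN : t ∈ Subgroup.normalizer ((R : Subgroup G) : Set G) := Sylow.smul_eq_iff_mem_normalizer.1 hR
    have hsup : IsPGroup p ↥((R : Subgroup G) ⊔ (P : Subgroup G)) := by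
      refine IsPGroup.to_sup_of_normal_left' R.isPGroup' P.isPGroup' ?_
      rw [hPt]
      exact Subgroup.zpowers_le.2 hN
    have h1 := R.is_maximal' hsup le_sup_left
    have h2 := P.is_maximal' hsup le_sup_right
    exact Sylow.ext (h1.symm.trans h2)
  haveI : Fintype (Sylow p G) := Fintype.ofFinite _
  obtain ⟨Q, hQP⟩ := Fintype.exists_ne_of_one_lt_card
    (by rw [← Nat.card_eq_fintype_card, hn1]; omega) P
  haveI : NeZero p := ⟨hp.ne_zero⟩
  have hfree : ∀ i : ℕ, t ^ i • Q = Q → p ∣ i := by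
    intro i hi
    by_contra hd
    obtain ⟨j, hj⟩ := exists_pow_eq_self_of_coprime (x := t) (n := i)
      (by rw [ht]; exact (hp.coprime_iff_not_dvd.2 hd).symm)
    have hmem : t ∈ MulAction.stabilizer G Q := hj ▸ Subgroup.pow_mem _ (show t ^ i ∈ MulAction.stabilizer G Q from hi) j
    exact hQP (honly Q hmem)
  -- the labelling
  let L : OnePoint (ZMod p) → Sylow p G := fun x =>
    match x with
    | none => P
    | some i => t ^ i.val • Q
  have hLc : ∀ i : ZMod p, L (i : OnePoint (ZMod p)) = t ^ i.val • Q := fun i => rfl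
  have hLi : L OnePoint.infty = P := rfl
  have hpow : ∀ a b : ℕ, a % p = b % p → t ^ a = t ^ b := fun a b h => by
    rw [← pow_mod_orderOf t a, ← pow_mod_orderOf t b, ht, h]
  have hnP : ∀ i : ℕ, t ^ i • Q ≠ P := fun i h => by
    have hmem : t ^ i ∈ MulAction.stabilizer G P :=
      Subgroup.pow_mem _ (show t ∈ MulAction.stabilizer G P from htfix) i
    exact hQP (MulAction.injective (t ^ i) (h.trans hmem.symm))
  have hLinj : Function.Injective L := by
    rintro (_ | i) (_ | j) h
    · rfl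
    · exact absurd h.symm (hnP _)
    · exact absurd h (hnP _)
    · have h' : t ^ i.val • Q = t ^ j.val • Q := h
      congr 1
      refine ZMod.val_injective p ?_
      rcases le_total i.val j.val with hle | hle
      · obtain ⟨d, hd⟩ := Nat.exists_eq_add_of_le hle
        rw [hd, pow_add, mul_smul] at h'
        have := Nat.eq_zero_of_dvd_of_lt (hfree d (MulAction.injective _ h').symm) (by have := ZMod.val_lt j; omega)
        omega
      · obtain ⟨d, hd⟩ := Nat.exists_eq_add_of_le hle
        rw [hd, pow_add, mul_smul] at h'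
        have := Nat.eq_zero_of_dvd_of_lt (hfree d (MulAction.injective _ h')) (by have := ZMod.val_lt i; omega)
        omega
  haveI : Fintype (OnePoint (ZMod p)) := inferInstanceAs (Fintype (Option (ZMod p)))
  have hLbij : Function.Bijective L := by
    refine (Nat.bijective_iff_injective_and_card L).2 ⟨hLinj, ?_⟩
    rw [hn1]
    show Nat.card (Option (ZMod p)) = _
    rw [Nat.card_eq_fintype_card, Fintype.card_option, ZMod.card]
  let E := Equiv.ofBijective L hLbij
  let σ : G →* Equiv.Perm (OnePoint (ZMod p)) :=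
    (E.symm.permCongrHom.toMonoidHom).comp (MulAction.toPermHom G (Sylow p G))
  have hσ : ∀ g x, L (σ g x) = g • L x := fun g x => E.apply_symm_apply _
  have hσt : ∀ x : ZMod p, σ t x = ((x + 1 : ZMod p) : OnePoint (ZMod p)) := by
    intro x
    refine hLinj ?_
    rw [hσ, hLc, hLc, ← mul_smul, ← pow_succ']
    congr 1
    refine hpow _ _ ?_
    rw [ZMod.val_add, ZMod.val_one, Nat.mod_mod]
  have hσt0 : σ t OnePoint.infty = OnePoint.infty := hLinj (by rw [hσ, hLi]; exact htfix)
  have hσinj : Function.Injective σ := by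
    rw [← MonoidHom.ker_eq_bot_iff]
    refine (MonoidHom.normal_ker σ).eq_bot_or_eq_top.resolve_right fun htop => ?_
    have h := Equiv.congr_fun (MonoidHom.mem_ker.1 (htop.ge (Subgroup.mem_top t))) ((0 : ZMod p) : OnePoint (ZMod p))
    rw [hσt] at h
    simp at h
  -- stabilizers
  have hNcard : Nat.card (MulAction.stabilizer G P) = p * k := by
    have h1 := (MulAction.stabilizer G P).card_mul_index
    rw [MulAction.index_stabilizer_of_transitive, hn1, hG] at h1
    refine Nat.eq_of_mul_eq_mul_right (Nat.succ_pos p) (h1.trans (by rw [Nat.succ_eq_add_one]; ring))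
  set H := MulAction.stabilizer G P ⊓ MulAction.stabilizer G Q with hH
  have hsplit : ∀ v ∈ MulAction.stabilizer G P, ∃ i : ℕ, (t ^ i)⁻¹ * v ∈ H := by
    intro v hv
    obtain ⟨x, hx⟩ := hLbij.2 (v • Q)
    cases x with
    | infty =>
      exact absurd (MulAction.injective v (hx.symm.trans (hv : v • P = P).symm)) hQP
    | coe i =>
      refine ⟨i.val, Subgroup.mul_mem _ (Subgroup.inv_mem _ (Subgroup.pow_mem _ htfix _)) hv, ?_⟩
      show ((t ^ i.val)⁻¹ * v) • Q = Q
      rw [mul_smul, ← hx, hLc, inv_smul_smul]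
  have hHcard : Nat.card H = k := by
    have e : Nat.card (MulAction.stabilizer G P) = p * Nat.card H := by
      have e0 : Nat.card (Fin p × H) = p * Nat.card H := by
        rw [Nat.card_prod, Nat.card_eq_fintype_card, Fintype.card_fin]
      rw [← e0]
      refine (Nat.card_congr (Equiv.ofBijective (fun q : Fin p × H => (⟨t ^ (q.1 : ℕ) * q.2,
        Subgroup.mul_mem _ (Subgroup.pow_mem _ htfix _) q.2.2.1⟩ : MulAction.stabilizer G P)) ⟨?_, ?_⟩)).symm
      · rintro ⟨a, u, hu⟩ ⟨b, v, hv⟩ h
        have h : t ^ (a : ℕ) * u = t ^ (b : ℕ) * v := congrArg (fun z : MulAction.stabilizer G P => (z : G)) h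
        have h2 : t ^ (a : ℕ) • Q = t ^ (b : ℕ) • Q := by
          have := congrArg (· • Q) h
          simp only [mul_smul] at this
          rwa [show u • Q = Q from hu.2, show v • Q = Q from hv.2] at this
        have hab : ((a : ℕ) : ZMod p) = ((b : ℕ) : ZMod p) := by
          refine Option.some_injective _ (hLinj ?_)
          show t ^ (((a : ℕ) : ZMod p)).val • Q = t ^ (((b : ℕ) : ZMod p)).val • Q
          rw [ZMod.val_natCast, ZMod.val_natCast, Nat.mod_eq_of_lt a.2, Nat.mod_eq_of_lt b.2, h2]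
        have hab' : a = b := Fin.ext (by
          have := congrArg ZMod.val hab
          rwa [ZMod.val_natCast, ZMod.val_natCast, Nat.mod_eq_of_lt a.2, Nat.mod_eq_of_lt b.2] at this)
        subst hab'
        exact Prod.ext rfl (Subtype.ext (mul_left_cancel h))
      · rintro ⟨v, hv⟩
        obtain ⟨i, hi⟩ := hsplit v hv
        refine ⟨⟨⟨i % p, Nat.mod_lt _ hp.pos⟩, ⟨_, hi⟩⟩, Subtype.ext ?_⟩
        show t ^ (i % p) * ((t ^ i)⁻¹ * v) = v
        rw [hpow (i % p) i (Nat.mod_mod _ _), mul_inv_cancel_left]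
    exact Nat.eq_of_mul_eq_mul_left hp.pos (e.symm.trans hNcard)
  -- elements of `H` are dilations by squares
  have hdil : ∀ h ∈ H, ∃ r : ZMod p, r ^ k = 1 ∧ σ h OnePoint.infty = OnePoint.infty ∧
      ∀ x : ZMod p, σ h x = ((r * x : ZMod p) : OnePoint (ZMod p)) := by
    intro h hh
    have hn : h * t * h⁻¹ ∈ (P : Subgroup G) :=
      (Subgroup.mem_normalizer_iff.1 (Sylow.smul_eq_iff_mem_normalizer.1 hh.1) t).1 htP
    rw [hPt, ← mem_powers_iff_mem_zpowers] at hn
    obtain ⟨r, hr⟩ := hn
    have hr : t ^ r = h * t * h⁻¹ := hr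
    have hlin : ∀ x : ZMod p, σ h x = (((r : ZMod p) * x : ZMod p) : OnePoint (ZMod p)) := by
      intro x
      refine hLinj ?_
      rw [hσ, hLc, hLc, ← mul_smul]
      have e : h * t ^ x.val = t ^ (r * x.val) * h := by rw [pow_mul, hr, conj_pow, inv_mul_cancel_right]
      rw [e, mul_smul, show h • Q = Q from hh.2]
      congr 1
      refine hpow _ _ ?_
      rw [ZMod.val_mul, ZMod.val_natCast, Nat.mod_mod, Nat.mod_mul_mod]
    refine ⟨r, ?_, hLinj (by rw [hσ, hLi]; exact hh.1), hlin⟩
    have hiter : ∀ n : ℕ, σ (h ^ n) ((1 : ZMod p) : OnePoint (ZMod p)) = (((r : ZMod p) ^ n : ZMod p) : OnePoint (ZMod p)) := by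
      intro n
      induction n with
      | zero => rw [pow_zero, map_one, pow_zero]; rfl
      | succ n ih => rw [pow_succ', map_mul, Equiv.Perm.mul_apply, ih, hlin, pow_succ']
    have hhk : h ^ k = 1 := by
      have := congrArg Subtype.val (pow_card_eq_one' (x := (⟨h, hh⟩ : H)))
      rwa [hHcard] at this
    have h3 := hiter k
    rw [hhk, map_one, Equiv.Perm.one_apply, OnePoint.coe_eq_coe] at h3
    exact h3.symm
  choose! ρ hρ hρ0 hρx using hdil
  have hall : ∀ r : ZMod p, r ^ k = 1 → ∃ h ∈ H, ρ h = r := by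
    let f : H → {r : ZMod p // r ^ k = 1} := fun h => ⟨ρ h, hρ h h.2⟩
    have hf : Function.Injective f := by
      rintro ⟨a, ha⟩ ⟨b, hb⟩ h
      have h : ρ a = ρ b := congrArg Subtype.val h
      refine Subtype.ext (hσinj (Equiv.ext fun y => ?_))
      cases y with
      | infty => rw [hρ0 a ha, hρ0 b hb]
      | coe x => rw [hρx a ha, hρx b hb, h]
    have hle : Nat.card {r : ZMod p // r ^ k = 1} ≤ Nat.card H := by
      rw [hHcard]
      calc Nat.card {r : ZMod p // r ^ k = 1} ≤ Nat.card ↥(Polynomial.nthRootsFinset k (1 : ZMod p)) :=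
            Nat.card_le_card_of_injective (fun r => ⟨r.1, (Polynomial.mem_nthRootsFinset (by omega : 0 < k) _).2 r.2⟩)
              (fun a b h => Subtype.ext (congrArg (fun z : ↥(Polynomial.nthRootsFinset k (1 : ZMod p)) => (z : ZMod p)) h))
        _ ≤ k := by
            rw [Nat.card_eq_fintype_card, Fintype.card_coe, Polynomial.nthRootsFinset_def]
            exact (Multiset.toFinset_card_le _).trans (Polynomial.card_nthRoots k 1)
    intro r hr
    obtain ⟨⟨h, hh⟩, e⟩ := (hf.bijective_of_nat_card_le hle).2 ⟨r, hr⟩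
    exact ⟨h, hh, congrArg Subtype.val e⟩
  -- a swap of the two fixed points
  obtain ⟨g, hg⟩ := MulAction.exists_smul_eq G P Q
  obtain ⟨v, hv, hvQ⟩ : ∃ v ∈ MulAction.stabilizer G P, v • Q = g⁻¹ • P := by
    obtain ⟨x, hx⟩ := hLbij.2 (g⁻¹ • P)
    cases x with
    | infty =>
      exfalso
      have : P = g⁻¹ • P := hx
      rw [eq_inv_smul_iff, hg] at this
      exact hQP this
    | coe i => exact ⟨t ^ i.val, Subgroup.pow_mem _ htfix _, hx⟩
  set w := g * v with hw
  have hwP : w • P = Q := by rw [hw, mul_smul, show v • P = P from hv, hg]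
  have hwQ : w • Q = P := by rw [hw, mul_smul, hvQ, smul_inv_smul]
  have hLzero : L ((0 : ZMod p) : OnePoint (ZMod p)) = Q := by rw [hLc, ZMod.val_zero, pow_zero, one_smul]
  have hw0 : σ w OnePoint.infty = ((0 : ZMod p) : OnePoint (ZMod p)) := hLinj (by rw [hσ, hLi, hwP, hLzero])
  have hw1 : σ w ((0 : ZMod p) : OnePoint (ZMod p)) = OnePoint.infty := hLinj (by rw [hσ, hLzero, hwQ, hLi])
  have hwH : ∀ h ∈ H, w * h * w⁻¹ ∈ H := by
    intro h hh
    constructor
    · show (w * h * w⁻¹) • P = P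
      rw [mul_smul, mul_smul, show w⁻¹ • P = Q from inv_smul_eq_iff.2 hwQ.symm, show h • Q = Q from hh.2, hwQ]
    · show (w * h * w⁻¹) • Q = Q
      rw [mul_smul, mul_smul, show w⁻¹ • Q = P from inv_smul_eq_iff.2 hwP.symm, show h • P = P from hh.1, hwP]
  have hw2 : w * w ∈ H :=
    ⟨show (w * w) • P = P by rw [mul_smul, hwP, hwQ], show (w * w) • Q = Q by rw [mul_smul, hwQ, hwP]⟩
  subst hpdef; subst hkdef
  obtain rfl : hfp = fact_thirteen := rfl
  have hρ0' : ∀ h ∈ H, ρ h ≠ 0 := fun h hh h0 => by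
    have := hρ h hh
    rw [h0, zero_pow (by norm_num)] at this
    exact zero_ne_one this
  have hρmul : ∀ a ∈ H, ∀ b ∈ H, ρ (a * b) = ρ a * ρ b := by
    intro a ha b hb
    have h1 := hρx _ (H.mul_mem ha hb) 1
    rw [map_mul, Equiv.Perm.mul_apply, hρx b hb, hρx a ha, OnePoint.coe_eq_coe, mul_one, mul_one] at h1
    exact h1.symm
  have hρinj : ∀ a ∈ H, ∀ b ∈ H, ρ a = ρ b → a = b := by
    intro a ha b hb h
    refine hσinj (Equiv.ext fun y => ?_)
    cases y with
    | infty => rw [hρ0 a ha, hρ0 b hb]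
    | coe x => rw [hρx a ha, hρx b hb, h]
  have hρ1 : ρ 1 = 1 := by
    have h1 := hρmul 1 H.one_mem 1 H.one_mem
    rw [one_mul] at h1
    exact mul_left_cancel₀ (hρ0' 1 H.one_mem) (h1.symm.trans (mul_one _).symm)
  have hρinv : ∀ h ∈ H, ρ h⁻¹ = (ρ h)⁻¹ := fun h hh =>
    eq_inv_of_mul_eq_one_left (by rw [← hρmul _ (H.inv_mem hh) _ hh, inv_mul_cancel, hρ1])
  obtain ⟨h3, hh3, hh3r⟩ := hall 3 (by decide +kernel)
  obtain ⟨z, hz, hzr⟩ := hall (-1) (by decide +kernel)
  have hzc : ρ (w * z * w⁻¹) = -1 := by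
    have h1 : ρ (w * z * w⁻¹) * ρ (w * z * w⁻¹) = 1 := by
      rw [← hρmul _ (hwH z hz) _ (hwH z hz), show w * z * w⁻¹ * (w * z * w⁻¹) = w * (z * z) * w⁻¹ by group]
      have : z * z = 1 := hρinj _ (H.mul_mem hz hz) _ H.one_mem (by rw [hρmul z hz z hz, hzr, hρ1]; decide +kernel)
      rw [this, mul_one, mul_inv_cancel, hρ1]
    refine (mul_self_eq_one_iff.1 h1).resolve_left fun h2 => ?_
    have h3' : w * z * w⁻¹ = 1 := hρinj _ (hwH z hz) _ H.one_mem (h2.trans hρ1.symm)
    rw [mul_inv_eq_one, mul_eq_left] at h3'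
    rw [h3', hρ1] at hzr
    exact absurd hzr (by decide +kernel)
  have h3pow : h3 ^ 3 = 1 := by
    refine hρinj _ (H.pow_mem hh3 3) _ H.one_mem ?_
    rw [pow_three, hρmul _ hh3 _ (H.mul_mem hh3 hh3), hρmul _ hh3 _ hh3, hh3r, hρ1]
    decide +kernel
  have h3ne : h3 ≠ 1 := fun h => by
    rw [h, hρ1] at hh3r
    exact absurd hh3r (by decide +kernel)
  haveI : Fact (Nat.Prime 3) := ⟨Nat.prime_three⟩
  have h3o : orderOf h3 = 3 := orderOf_eq_prime h3pow h3ne
  have h3c : ρ (w * h3 * w⁻¹) = 9 := by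
    set r := ρ (w * h3 * w⁻¹) with hr
    have h1 : r * (r * r) = 1 := by
      rw [hr, ← hρmul _ (hwH h3 hh3) _ (hwH h3 hh3), ← hρmul _ (hwH h3 hh3) _ (H.mul_mem (hwH h3 hh3) (hwH h3 hh3)), ← hρ1]
      congr 1
      rw [show w * h3 * w⁻¹ * (w * h3 * w⁻¹ * (w * h3 * w⁻¹)) = w * h3 ^ 3 * w⁻¹ by rw [pow_three]; group, h3pow]
      group
    have h2 : r ≠ 1 := fun h => by
      have h3' := hρinj _ (hwH h3 hh3) _ H.one_mem (h.trans hρ1.symm)
      rw [mul_inv_eq_one, mul_eq_left] at h3'
      exact h3ne h3'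
    have key := cube_roots
    refine (key r h1 h2).resolve_left fun h => ?_
    -- then `w` centralizes a Sylow `3`-subgroup with a normal complement
    have hc0 : w * h3 * w⁻¹ = h3 := hρinj _ (hwH h3 hh3) _ hh3 (h.trans hh3r.symm)
    set J := Subgroup.zpowers h3 with hJ
    have hJcard : Nat.card J = 3 := by rw [Nat.card_zpowers, h3o]
    have hJH : J ≤ H := Subgroup.zpowers_le.2 hh3
    have hHk : IsPGroup 3 J := IsPGroup.of_card (n := 1) (by rw [hJcard, pow_one])
    have hJsyl : ¬ 3 ∣ J.index := by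
      have h1 := J.card_mul_index
      rw [hJcard, hG'] at h1
      omega
    set S := hHk.toSylow hJsyl with hSdef
    have hS : (S : Subgroup G) = J := rfl
    have hfixed : ∀ R : Sylow 13 G, h3 • R = R → R = P ∨ R = Q := by
      intro R hR
      obtain ⟨x, rfl⟩ := hLbij.2 R
      cases x with
      | infty => exact Or.inl rfl
      | coe i =>
        right
        have h' : σ h3 (i : OnePoint (ZMod 13)) = (i : OnePoint (ZMod 13)) := hLinj ((hσ h3 _).trans hR)
        rw [hρx h3 hh3, OnePoint.coe_eq_coe, hh3r] at h'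
        have hi : i = 0 := by
          by_contra hi
          exact absurd (mul_right_cancel₀ hi (h'.trans (one_mul i).symm)) (by decide +kernel)
        rw [hi, hLzero]
    have hSc : Subgroup.normalizer ((S : Subgroup G) : Set G) ≤ Subgroup.centralizer ((S : Subgroup G) : Set G) := by
      rw [hS]
      intro n hn
      have hmap : ∀ R : Sylow 13 G, R = P ∨ R = Q → n • R = P ∨ n • R = Q := by
        intro R hR
        refine hfixed _ ?_
        have hmem : n⁻¹ * h3 * n ∈ H := hJH ((Subgroup.mem_normalizer_iff''.1 hn h3).1 (Subgroup.mem_zpowers h3))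
        have hfix : (n⁻¹ * h3 * n) • R = R := by
          rcases hR with rfl | rfl
          · exact hmem.1
          · exact hmem.2
        rw [← mul_smul]
        conv_rhs => rw [← hfix, ← mul_smul]
        congr 1
        group
      obtain ⟨u, hu, hn'⟩ : ∃ u ∈ H, n = u ∨ n = w * u := by
        rcases hmap P (Or.inl rfl) with h | h
        · rcases hmap Q (Or.inr rfl) with h' | h'
          · exact absurd (MulAction.injective n (h'.trans h.symm)) hQP
          · exact ⟨n, ⟨h, h'⟩, Or.inl rfl⟩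
        · rcases hmap Q (Or.inr rfl) with h' | h'
          · refine ⟨w⁻¹ * n, ⟨?_, ?_⟩, Or.inr (by group)⟩
            · show (w⁻¹ * n) • P = P
              rw [mul_smul, h, inv_smul_eq_iff, hwP]
            · show (w⁻¹ * n) • Q = Q
              rw [mul_smul, h', inv_smul_eq_iff, hwQ]
          · exact absurd (MulAction.injective n (h'.trans h.symm)) hQP
      refine Subgroup.mem_centralizer_iff.2 fun a ha => ?_
      have hwa : Commute w a := by
        obtain ⟨i, rfl⟩ := Subgroup.mem_zpowers_iff.1 ha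
        exact (show Commute w h3 from mul_inv_eq_iff_eq_mul.1 hc0).zpow_right i
      have hua : Commute u a := hρinj _ (H.mul_mem hu (hJH ha)) _ (H.mul_mem (hJH ha) hu)
        (by rw [hρmul u hu a (hJH ha), hρmul a (hJH ha) u hu, mul_comm])
      rcases hn' with rfl | rfl
      · exact hua.eq.symm
      · exact (hwa.mul_left hua).eq.symm
    have hc := MonoidHom.ker_transferSylow_isComplement' S hSc
    have hcm : Nat.card ↥(MonoidHom.transferSylow S hSc).ker * Nat.card J = Nat.card G := hc.card_mul_card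
    rw [hJcard, hG'] at hcm
    rcases (MonoidHom.normal_ker (MonoidHom.transferSylow S hSc)).eq_bot_or_eq_top with h | h
    · rw [h, Subgroup.card_bot, one_mul] at hcm
      omega
    · rw [h, Subgroup.card_top, hG'] at hcm
      omega
  have hinv : ∀ h ∈ H, ρ (w * h * w⁻¹) = (ρ h)⁻¹ := by
    intro h hh
    have hmul : ∀ a ∈ H, ∀ b ∈ H, ρ (w * (a * b) * w⁻¹) = ρ (w * a * w⁻¹) * ρ (w * b * w⁻¹) := fun a ha b hb => by
      rw [← hρmul _ (hwH a ha) _ (hwH b hb)]; congr 1; group
    have c1 : ρ (w * 1 * w⁻¹) = 1 := by rw [mul_one, mul_inv_cancel, hρ1]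
    have key : ∀ e ∈ H, ρ e = ρ h → ρ (w * h * w⁻¹) = ρ (w * e * w⁻¹) := fun e he heq => by
      rw [hρinj e he h hh heq]
    rcases sixth_roots (ρ h) (hρ h hh) with e | e | e | e | e | e <;> rw [e]
    · rw [key 1 H.one_mem (hρ1.trans e.symm), c1]; decide +kernel
    · rw [key h3 hh3 (hh3r.trans e.symm), h3c]; decide +kernel
    · rw [key (h3 * h3) (H.mul_mem hh3 hh3) (by rw [hρmul _ hh3 _ hh3, hh3r, e]; decide +kernel), hmul _ hh3 _ hh3, h3c]
      decide +kernel
    · rw [key z hz (hzr.trans e.symm), hzc]; decide +kernel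
    · rw [key (z * h3) (H.mul_mem hz hh3) (by rw [hρmul _ hz _ hh3, hzr, hh3r, e]; decide +kernel), hmul _ hz _ hh3, hzc, h3c]
      decide +kernel
    · rw [key (z * (h3 * h3)) (H.mul_mem hz (H.mul_mem hh3 hh3))
          (by rw [hρmul _ hz _ (H.mul_mem hh3 hh3), hρmul _ hh3 _ hh3, hzr, hh3r, e]; decide +kernel),
        hmul _ hz _ (H.mul_mem hh3 hh3), hmul _ hh3 _ hh3, hzc, h3c]
      decide +kernel
  have hwh : ∀ h ∈ H, ∀ x : ZMod 13, ∀ y : ZMod 13, σ w x = (y : OnePoint (ZMod 13)) →
      σ w ((ρ h * x : ZMod 13) : OnePoint (ZMod 13)) = (((ρ h)⁻¹ * y : ZMod 13) : OnePoint (ZMod 13)) := by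
    intro h hh x y hxy
    have h1 : σ h (x : OnePoint (ZMod 13)) = ((ρ h * x : ZMod 13) : OnePoint (ZMod 13)) := hρx h hh x
    rw [← h1, ← Equiv.Perm.mul_apply, ← map_mul, show w * h = (w * h * w⁻¹) * w by group, map_mul,
      Equiv.Perm.mul_apply, hxy, hρx _ (hwH h hh), hinv h hh]
  have hfin : ∀ x : ZMod 13, x ≠ 0 → ∃ y : ZMod 13, y ≠ 0 ∧ σ w x = (y : OnePoint (ZMod 13)) := by
    intro x hx
    generalize hy : σ w (x : OnePoint (ZMod 13)) = y
    cases y with
    | infty =>
      rw [← hw1] at hy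
      exact absurd (OnePoint.coe_eq_coe.1 ((σ w).injective hy)) hx
    | coe a =>
      refine ⟨a, fun h0 => ?_, rfl⟩
      rw [h0, ← hw0] at hy
      exact OnePoint.coe_ne_infty x ((σ w).injective hy)
  obtain ⟨A, hA0, hA⟩ := hfin 1 one_ne_zero
  obtain ⟨Y, hY0, hY⟩ := hfin 2 (by decide +kernel)
  set B := 2 * Y with hB
  have hB0 : B ≠ 0 := mul_ne_zero (by decide +kernel) hY0
  have hcases := sixth_cases
  have hf : ∀ x : OnePoint (ZMod 13), σ w x = cand A B x := by
    intro x
    cases x with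
    | infty => exact hw0
    | coe x =>
      show _ = cand A B (some x)
      simp only [cand]
      split_ifs with h0 h6
      · rw [h0]; exact hw1
      · obtain ⟨h, hh, hhr⟩ := hall x h6
        have := hwh h hh 1 A hA
        rw [hhr, mul_one] at this
        rw [this, show x⁻¹ = x ^ 11 from inv_eq_of_mul_eq_one_right (inv_eq_pow x h0), mul_comm]
        rfl
      · obtain ⟨h, hh, hhr⟩ := hall (x * 7) ((hcases x h0).resolve_left h6)
        have := hwh h hh 2 Y hY
        rw [hhr, seven_two x] at this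
        rw [this]
        show some ((x * 7)⁻¹ * Y) = some (B * x ^ 11)
        rw [hB, _root_.mul_inv_rev, show x⁻¹ = x ^ 11 from inv_eq_of_mul_eq_one_right (inv_eq_pow x h0),
          show (7 : ZMod 13)⁻¹ = 2 from inv_eq_of_mul_eq_one_right (by decide +kernel)]
        congr 1
        ring
  have hiter : ∀ n : ℕ, ∀ x : OnePoint (ZMod 13), σ (t ^ n) x = shift (n : ZMod 13) x := by
    intro n
    induction n with
    | zero =>
      intro x
      rw [pow_zero, map_one, Equiv.Perm.one_apply]
      cases x with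
      | infty => rfl
      | coe y => show some y = some (y + ((0 : ℕ) : ZMod 13)); rw [Nat.cast_zero, add_zero]
    | succ n ih =>
      intro x
      rw [pow_succ', map_mul, Equiv.Perm.mul_apply, ih]
      cases x with
      | infty => exact hσt0
      | coe y =>
        show σ t (((y + (n : ZMod 13)) : ZMod 13) : OnePoint (ZMod 13)) = _
        rw [hσt]
        show some _ = some _
        congr 1
        push_cast
        ring
  set g' := w * t ^ (-A).val * w * t ^ 1 * w with hg'
  have hg'x : ∀ x : OnePoint (ZMod 13), σ g' x = word A B x := by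
    intro x
    rw [hg', map_mul, map_mul, map_mul, map_mul, Equiv.Perm.mul_apply, Equiv.Perm.mul_apply, Equiv.Perm.mul_apply,
      Equiv.Perm.mul_apply, hf, hiter, hf, hiter, hf, ZMod.natCast_zmod_val, Nat.cast_one]
    rfl
  have hg'P : g' ∈ MulAction.stabilizer G P := by
    have hval := word_none
    have h1 : σ g' OnePoint.infty = OnePoint.infty := (hg'x _).trans (hval A B hA0)
    have h2 := hσ g' OnePoint.infty
    rw [h1, hLi] at h2
    exact h2.symm
  have haff : ∀ x : ZMod 13, ∃ (i : ℕ) (u : G) (_ : u ∈ H), word A B (some x) = some (ρ u * x + (i : ZMod 13)) ∧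
      word A B (some 0) = some (i : ZMod 13) ∧ word A B (some 1) = some (ρ u + (i : ZMod 13)) := by
    intro x
    obtain ⟨i, hi⟩ := hsplit g' hg'P
    have hform : ∀ y : ZMod 13, word A B (some y) = some (ρ ((t ^ i)⁻¹ * g') * y + (i : ZMod 13)) := by
      intro y
      have h1 := hg'x (y : OnePoint (ZMod 13))
      rw [show g' = t ^ i * ((t ^ i)⁻¹ * g') by group, map_mul, Equiv.Perm.mul_apply, hρx _ hi, hiter] at h1
      exact h1.symm
    refine ⟨i, _, hi, hform x, ?_, ?_⟩
    · rw [hform 0, mul_zero, zero_add]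
    · rw [hform 1, mul_one]
  obtain ⟨i, u, hu, -, hs0, hs1⟩ := haff 0
  obtain ⟨hAB, hA6⟩ := affine_word A B hA0 hB0 _ _ hs0 hs1 (by rw [add_sub_cancel_right]; exact hρ u hu) (fun x => by
    obtain ⟨i', u', -, e1, e2, e3⟩ := haff x
    rw [hs0] at e2; rw [hs1] at e3
    have h2 := Option.some_injective _ e2
    have h3 := Option.some_injective _ e3
    rw [e1]; congr 1; linear_combination (-x) * h3 + (x - 1) * h2)
  have hswap : ∀ x : ZMod 13, x ≠ 0 → σ w x = ((A / x : ZMod 13) : OnePoint (ZMod 13)) := by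
    intro x hx
    rw [hf]
    show cand A B (some x) = some (A / x)
    simp only [cand, if_neg hx, ← hAB, ite_self]
    rw [div_eq_mul_inv, show x⁻¹ = x ^ 11 from inv_eq_of_mul_eq_one_right (inv_eq_pow x hx)]
  refine nonempty_equiv_of_range (by norm_num) σ hσinj (by rw [hG', card_psl 6 (by norm_num)]) fun g => ?_
  have hT : σ t ∈ (act (p := 13)).range := mem_range_translate hσt0 hσt
  have hW : σ w ∈ (act (p := 13)).range := by
    refine mem_range_invert ?_ hA0 hw0 hw1 hswap
    rw [ZMod.euler_criterion 13 (neg_ne_zero.2 hA0)]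
    show (-A) ^ 6 = 1
    rw [Even.neg_pow ⟨3, rfl⟩, hA6]
  have hHr : ∀ h ∈ H, σ h ∈ (act (p := 13)).range := by
    intro h hh
    refine mem_range_dilate ?_ (hρ0' h hh) (hρ0 h hh) (hρx h hh)
    rw [ZMod.euler_criterion 13 (hρ0' h hh)]
    exact hρ h hh
  have hNr : ∀ v ∈ MulAction.stabilizer G P, σ v ∈ (act (p := 13)).range := by
    intro v hv
    obtain ⟨i, hi⟩ := hsplit v hv
    rw [show v = t ^ i * ((t ^ i)⁻¹ * v) by group, map_mul, map_pow]
    exact mul_mem (pow_mem hT i) (hHr _ hi)
  obtain ⟨x, hx⟩ := hLbij.2 (g • P)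
  cases x with
  | infty => exact hNr g hx.symm
  | coe i =>
    have hm : (t ^ i.val * w)⁻¹ * g ∈ MulAction.stabilizer G P := by
      show ((t ^ i.val * w)⁻¹ * g) • P = P
      rw [mul_smul, ← hx, inv_smul_eq_iff, mul_smul, hwP, hLc]
    rw [show g = t ^ i.val * w * ((t ^ i.val * w)⁻¹ * g) by group, map_mul, map_mul, map_pow]
    exact mul_mem (mul_mem (pow_mem hT _) hW) (hNr _ hm)

end Cfsg.Lib.Recog.SimplePSLTwo
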