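import Mathlib
import Cfsg.Prelude.Def_Solvable
import Cfsg.Agent.Lib.ZStar.UniqueInvolution
import Cfsg.Agent.Lib.TwoFus.CyclicSylow
import Cfsg.Agent.Lib.Solv.MinNormal
import Cfsg.Agent.Lib.Solv.Cores

/-!
# Solvable groups all of whose abelian p-subgroups are cyclic
-/

set_option autoImplicit false
set_option linter.style.haveILetI false
open Subgroup
open scoped commutatorElement

namespace Cfsg.Lib.Recog.SolvCompl

variable {G : Type*} [Group G] [Finite G]

/-- Subgroups of prime order in a prime-power subgroup are unique. -/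
def Uniq (G : Type*) [Group G] : Prop :=
  ∀ p : ℕ, p.Prime → ∀ P : Subgroup G, IsPGroup p P → ∀ x y : P,
    orderOf x = p → orderOf y = p → y ∈ zpowers x

theorem cyclic_or_inverted (hU : Uniq G) {p : ℕ} [hp : Fact p.Prime] (P : Subgroup G) (hP : IsPGroup p P) :
    IsCyclic P ∨ (p = 2 ∧ ∃ a g : P, 4 ≤ orderOf a ∧ (zpowers a).index = 2 ∧
      g ∉ zpowers a ∧ g * a * g⁻¹ = a⁻¹ ∧ g ^ 2 = a ^ (orderOf a / 2)) :=
  Cfsg.Lib.ZStar.isCyclic_or_inverted hP (hU p hp.out P hP)

/-- A 2-element centralising a noncyclic 2-subgroup squares to one. -/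
theorem sq_eq_one (hU : Uniq G) (T : Subgroup G) (hT : IsPGroup 2 T) (hTnc : ¬ IsCyclic T)
    {τ : G} {k : ℕ} (hk : orderOf τ = 2 ^ k) (hc : ∀ x ∈ T, Commute τ x) : τ ^ 2 = 1 := by
  haveI : Fact (Nat.Prime 2) := ⟨Nat.prime_two⟩
  by_contra hτ
  have hk2 : 2 ≤ k := by
    by_contra hlt
    refine hτ (orderOf_dvd_iff_pow_eq_one.1 ?_)
    rw [hk]
    exact (pow_dvd_pow 2 (show k ≤ 1 by omega))
  set u := τ ^ (2 ^ (k - 2)) with hu
  have ou : orderOf u = 4 := by
    rw [hu, orderOf_pow_of_dvd (by positivity) (hk ▸ pow_dvd_pow 2 (by omega)), hk,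
      Nat.pow_div (by omega) two_pos, show k - (k - 2) = 2 by omega]
    norm_num
  have hfour : ∀ x ∈ T, orderOf x = 4 → zpowers x = zpowers u := by
    intro x hx ox
    have hcm : Commute u x := (hc x hx).pow_left _
    set A := zpowers u ⊔ zpowers x with hA
    have h2u : IsPGroup 2 (zpowers u) := IsPGroup.of_card (n := 2) (by rw [Nat.card_zpowers, ou]; norm_num)
    have h2x : IsPGroup 2 (zpowers x) := IsPGroup.of_card (n := 2) (by rw [Nat.card_zpowers, ox]; norm_num)
    have hxu : zpowers x ≤ normalizer ((zpowers u : Subgroup G) : Set G) := by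
      refine le_trans (zpowers_le.2 ?_) (centralizer_le_normalizer _)
      rw [mem_centralizer_iff]
      intro z hz
      obtain ⟨i, rfl⟩ := mem_zpowers_iff.1 hz
      exact (hcm.zpow_left i).eq
    have hA2 : IsPGroup 2 A := h2u.to_sup_of_normal_left' h2x hxu
    have hAc : IsMulCommutative A := by
      have hcl : A = closure {u, x} := by
        rw [hA, zpowers_eq_closure, zpowers_eq_closure, ← Subgroup.closure_union]
        rfl
      rw [hcl]
      refine isMulCommutative_closure ?_
      rintro a (rfl | rfl) b (rfl | rfl)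
      exacts [rfl, hcm.eq, hcm.eq.symm, rfl]
    haveI : IsMulCommutative (⊤ : Subgroup A) :=
      ⟨⟨fun a b => Subtype.ext (hAc.is_comm.comm a.1 b.1)⟩⟩
    obtain ⟨c, hcA⟩ := Cfsg.Lib.ZStar.exists_generator_of_unique hA2 (hU 2 Nat.prime_two A hA2) ⊤ this
    haveI : IsCyclic A := ⟨c, fun z => by
      have hz : z ∈ (⊤ : Subgroup A) := mem_top z
      rw [hcA] at hz
      exact hz⟩
    have huA : u ∈ A := le_sup_left (b := zpowers x) (mem_zpowers u)
    have hxA : x ∈ A := le_sup_right (a := zpowers u) (mem_zpowers x)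
    have he : zpowers (⟨x, hxA⟩ : A) = zpowers ⟨u, huA⟩ := by
      refine Cfsg.Lib.TwoFus.eq_of_card_eq_cyclic ?_
      rw [Nat.card_zpowers, Nat.card_zpowers, Subgroup.orderOf_mk, Subgroup.orderOf_mk, ou, ox]
    have h2 := congrArg (Subgroup.map A.subtype) he
    rwa [MonoidHom.map_zpowers, MonoidHom.map_zpowers] at h2
  rcases cyclic_or_inverted hU T hT with h | ⟨-, a, g, ha4, hidx, hg, hinv, hg2⟩
  · exact hTnc h
  obtain ⟨j, hj⟩ := hT.exists_orderOf_eq_pow a
  have hj2 : 2 ≤ j := by
    by_contra hlt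
    have : (2 : ℕ) ^ j ≤ 2 ^ 1 := Nat.pow_le_pow_right two_pos (by omega)
    omega
  have og : orderOf g = 2 ^ (1 + 1) := by
    refine orderOf_eq_prime_pow ?_ ?_
    · rw [pow_one, hg2]
      intro h
      have h1 := orderOf_dvd_of_pow_eq_one h
      have h2 := Nat.le_of_dvd (by omega) h1
      omega
    · rw [show (2 : ℕ) ^ (1 + 1) = 2 * 2 by norm_num, pow_mul, hg2, ← pow_mul,
        Nat.div_mul_cancel (by rw [hj]; exact dvd_pow_self 2 (by omega)), pow_orderOf_eq_one]
  set w := a ^ (2 ^ (j - 2)) with hw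
  have ow : orderOf w = 4 := by
    rw [hw, orderOf_pow_of_dvd (by positivity) (hj ▸ pow_dvd_pow 2 (by omega)), hj,
      Nat.pow_div (by omega) two_pos, show j - (j - 2) = 2 by omega]
    norm_num
  have e1 := hfour (g : G) g.2 (by rw [orderOf_coe, og]; norm_num)
  have e2 := hfour (w : G) w.2 (by rw [orderOf_coe]; exact ow)
  have h3 : (g : G) ∈ zpowers (w : G) := by rw [e2, ← e1]; exact mem_zpowers _
  obtain ⟨i, hi⟩ := mem_zpowers_iff.1 h3
  refine hg ?_
  have : g = w ^ i := Subtype.ext (by rw [coe_zpow]; exact hi.symm)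
  rw [this]
  exact zpow_mem (pow_mem (mem_zpowers a) _) i

/-- The squares in a finite abelian group with Sylow 2-subgroup of order two have index two. -/
theorem squares_index {B : Type*} [CommGroup B] [Finite B] (Bs : Subgroup B) (hBs : Nat.card Bs = 2)
    (hodd : ∀ Q : Subgroup B, IsPGroup 2 Q → Nat.card Q ≤ 2) :
    ((powMonoidHom 2 : B →* B).range).index = 2 ∧ ¬ Bs ≤ (powMonoidHom 2 : B →* B).range := by
  set f : B →* B := powMonoidHom 2
  have hker2 : IsPGroup 2 f.ker := fun x => ⟨1, Subtype.ext (by rw [pow_one]; exact x.2)⟩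
  have hle : Bs ≤ f.ker := fun x hx => by
    have := pow_card_eq_one' (G := Bs) (x := ⟨x, hx⟩)
    rw [hBs] at this
    simpa [f] using congrArg Subtype.val this
  have hker : f.ker = Bs := (Subgroup.eq_of_le_of_card_ge hle (by rw [hBs]; exact hodd _ hker2)).symm
  have hc : Nat.card B = 2 * Nat.card f.range := by
    rw [← hBs, ← hker, ← f.ker.card_mul_index, Subgroup.index_ker]
  have hpos : 0 < Nat.card f.range := Nat.card_pos
  refine ⟨?_, fun hcon => ?_⟩
  · have := f.range.card_mul_index
    rw [hc] at this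
    exact Nat.eq_of_mul_eq_mul_left hpos (by rw [this, mul_comm])
  · haveI : Fact (Nat.Prime 2) := ⟨Nat.prime_two⟩
    obtain ⟨Q, hQ⟩ := (IsPGroup.iff_card.2 ⟨1, by rw [hBs, pow_one]⟩ : IsPGroup 2 Bs).exists_le_sylow
    have h4 : 2 ^ 2 ∣ Nat.card B := by
      rw [hc, pow_two]
      exact Nat.mul_dvd_mul_left 2 (hBs ▸ Subgroup.card_dvd_of_le hcon)
    have h5 := Q.pow_dvd_card_of_pow_dvd_card h4
    have h6 := hodd _ Q.isPGroup'
    have := Nat.le_of_dvd Nat.card_pos h5
    omega

/-- In the presence of a cyclic derived group and a noncyclic Sylow 2-subgroup, some normal subgroup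
of index two has cyclic Sylow 2-subgroups. -/
theorem exists_index_two (hU : Uniq G) (hD : IsCyclic (commutator G)) (S : Sylow 2 G)
    (hS : ¬ IsCyclic (S : Subgroup G)) :
    ∃ G₀ : Subgroup G, G₀.index = 2 ∧ ∀ P : Subgroup G, P ≤ G₀ → IsPGroup 2 P → IsCyclic P := by
  classical
  haveI : Fact (Nat.Prime 2) := ⟨Nat.prime_two⟩
  rcases cyclic_or_inverted hU (S : Subgroup G) S.2 with h | ⟨-, a, g, ha4, hidx, hg, hinv, hg2⟩
  · exact absurd h hS
  set D := commutator G with hDdef
  set DS := D.subgroupOf (S : Subgroup G) with hDS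
  let ι : DS →* D :=
    { toFun := fun x => ⟨((x : (S : Subgroup G)) : G), x.2⟩
      map_one' := rfl
      map_mul' := fun _ _ => rfl }
  haveI : IsCyclic DS := isCyclic_of_injective ι fun x y h => by
    have h' : ((x : (S : Subgroup G)) : G) = ((y : (S : Subgroup G)) : G) := congrArg (fun z : D => (z : G)) h
    exact Subtype.ext (Subtype.ext h')
  obtain ⟨c', hc'⟩ := IsCyclic.exists_generator (α := DS)
  set c : (S : Subgroup G) := c'.1 with hc
  have hDSc : DS = zpowers c := by
    refine le_antisymm (fun x hx => ?_) (zpowers_le.2 c'.2)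
    obtain ⟨i, hi⟩ := hc' ⟨x, hx⟩
    exact ⟨i, by simpa [hc] using congrArg Subtype.val hi⟩
  have hScard : Nat.card (S : Subgroup G) = orderOf a * 2 := by
    rw [← (zpowers a).card_mul_index, hidx, Nat.card_zpowers]
  obtain ⟨a', hidx', hDa⟩ : ∃ a' : (S : Subgroup G), (zpowers a').index = 2 ∧ DS ≤ zpowers a' := by
    by_cases hca : c ∈ zpowers a
    · exact ⟨a, hidx, hDSc ▸ zpowers_le.2 hca⟩
    refine ⟨c, ?_, hDSc.le⟩
    have hcg : c * g⁻¹ ∈ zpowers a := by
      rw [mul_mem_iff_of_index_two hidx]
      simp [hca, hg]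
    obtain ⟨i, hi⟩ := mem_zpowers_iff.1 hcg
    have hc2 : c = a ^ i * g := by rw [hi]; group
    have hgi : g * a ^ i * g⁻¹ = (a ^ i)⁻¹ := by rw [← conj_zpow, hinv, inv_zpow]
    have hcsq : c ^ 2 = g ^ 2 := by
      rw [hc2, pow_two, pow_two]
      calc a ^ i * g * (a ^ i * g) = a ^ i * (g * a ^ i * g⁻¹) * (g * g) := by group
        _ = g * g := by rw [hgi, mul_inv_cancel, one_mul]
    have hn : (zpowers c).Normal := hDSc ▸ inferInstance
    obtain ⟨j, hj⟩ := mem_zpowers_iff.1 (hn.conj_mem c (mem_zpowers c) a)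
    have ha2 : a * c * a⁻¹ = a ^ (2 : ℕ) * c := by
      rw [hc2]
      have h1 : g * a⁻¹ = a * g := by
        calc g * a⁻¹ = (g * a * g⁻¹)⁻¹ * g := by group
          _ = a * g := by rw [hinv, inv_inv]
      calc a * (a ^ i * g) * a⁻¹ = a * a ^ i * (g * a⁻¹) := by group
        _ = a * a ^ i * (a * g) := by rw [h1]
        _ = a ^ (2 : ℕ) * (a ^ i * g) := by group
    have hj' : a ^ (2 : ℕ) = c ^ (j - 1) := by
      rw [zpow_sub_one, hj, ha2, mul_inv_cancel_right]
    have hc4 : c ^ (4 : ℕ) = 1 := by
      rw [show (4 : ℕ) = 2 * 2 by rfl, pow_mul, hcsq, hg2, ← pow_mul,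
        Nat.div_mul_cancel (by
          obtain ⟨l, hl⟩ := S.2.exists_orderOf_eq_pow a
          rw [hl] at ha4 ⊢
          exact dvd_pow_self 2 (by rintro rfl; simp at ha4)), pow_orderOf_eq_one]
    rcases Int.even_or_odd (j - 1) with ⟨l, hl⟩ | ⟨l, hl⟩
    · have ha4' : orderOf a = 4 := by
        have : a ^ (4 : ℕ) = 1 := by
          rw [show (4 : ℕ) = 2 * 2 by rfl, pow_mul, hj', hl, ← two_mul, ← zpow_natCast, ← zpow_mul,
            show 2 * l * ((2 : ℕ) : ℤ) = ((4 : ℕ) : ℤ) * l by push_cast; ring, zpow_mul, zpow_natCast, hc4,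
            one_zpow]
        have := Nat.le_of_dvd (by norm_num) (orderOf_dvd_of_pow_eq_one this)
        omega
      have oc : orderOf c = 2 ^ (1 + 1) := by
        refine orderOf_eq_prime_pow ?_ (by simpa using hc4)
        rw [pow_one, hcsq, hg2, ha4']
        intro h
        have := Nat.le_of_dvd (by norm_num) (orderOf_dvd_of_pow_eq_one h)
        omega
      have h := (zpowers c).card_mul_index
      rw [hScard, ha4', Nat.card_zpowers, oc] at h
      norm_num at h
      omega
    · exfalso
      refine hca ?_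
      have h1 : c ^ (j - 1) ∈ zpowers a := hj' ▸ pow_mem (mem_zpowers a) 2
      have h2 : c ^ (2 : ℕ) ∈ zpowers a := by rw [hcsq, hg2]; exact pow_mem (mem_zpowers a) _
      rw [hl, zpow_add, zpow_one] at h1
      have h3 : c ^ (2 * l) ∈ zpowers a := by
        rw [zpow_mul]; exact zpow_mem (by exact_mod_cast h2) l
      exact (mul_mem_cancel_left h3).1 h1
  set N := D ⊔ (zpowers a').map (S : Subgroup G).subtype with hN
  haveI hNn : N.Normal := ⟨fun x hx y => by
    have hD' : ⁅y, x⁆ ∈ N := mem_sup_left (by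
      rw [hDdef, _root_.commutator_def]; exact commutator_mem_commutator (mem_top y) (mem_top x))
    have : y * x * y⁻¹ = ⁅y, x⁆ * x := by rw [commutatorElement_def]; group
    rw [this]; exact mul_mem hD' hx⟩
  have hSN : N.subgroupOf (S : Subgroup G) = zpowers a' := by
    refine le_antisymm ?_ ?_
    · intro x hx
      rw [mem_subgroupOf, hN, mem_sup_of_normal_left] at hx
      obtain ⟨d, hd, z, ⟨z', hz', rfl⟩, hdz⟩ := hx
      have hdS : d ∈ (S : Subgroup G) := by
        rw [show d = (x : G) * ((z' : G))⁻¹ from eq_mul_inv_of_mul_eq hdz]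
        exact mul_mem x.2 (inv_mem z'.2)
      have hd' : (⟨d, hdS⟩ : (S : Subgroup G)) ∈ zpowers a' := hDa hd
      rw [show x = ⟨d, hdS⟩ * z' from Subtype.ext hdz.symm]
      exact mul_mem hd' hz'
    · exact fun x hx => mem_subgroupOf.2 (mem_sup_right ⟨x, hx, rfl⟩)
  let B := G ⧸ N
  let hBc : CommGroup B := { (inferInstance : Group B) with
    mul_comm := fun x y => by
      obtain ⟨x, rfl⟩ := QuotientGroup.mk_surjective x
      obtain ⟨y, rfl⟩ := QuotientGroup.mk_surjective y
      show ((x : B) * (y : B)) = (y : B) * x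
      rw [← QuotientGroup.mk_mul, ← QuotientGroup.mk_mul, QuotientGroup.eq]
      refine mem_sup_left ?_
      rw [show (x * y)⁻¹ * (y * x) = ⁅y⁻¹, x⁻¹⁆ by rw [commutatorElement_def]; group, hDdef,
        _root_.commutator_def]
      exact commutator_mem_commutator (mem_top _) (mem_top _) }
  let π : G →* B := QuotientGroup.mk' N
  set SB := (S : Subgroup G).map π with hSB
  have hSBc : Nat.card SB = 2 := by
    have h1 : Nat.card (π.comp (S : Subgroup G).subtype).range = 2 := by
      rw [← Subgroup.index_ker, ← MonoidHom.comap_ker, QuotientGroup.ker_mk']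
      show (N.subgroupOf (S : Subgroup G)).index = 2
      rw [hSN, hidx']
    rwa [MonoidHom.range_comp, Subgroup.range_subtype] at h1
  have hodd : ∀ Q : Subgroup B, IsPGroup 2 Q → Nat.card Q ≤ 2 := by
    intro Q hQ
    obtain ⟨R, hR⟩ := hQ.exists_le_sylow
    have hS' : Nat.card (S.mapSurjective (QuotientGroup.mk'_surjective N) : Subgroup B) = 2 := by
      rw [Sylow.coe_mapSurjective]; exact hSBc
    have := Sylow.card_eq_multiplicity R
    have hR2 : Nat.card R = 2 := by
      rw [this, ← Sylow.card_eq_multiplicity (S.mapSurjective (QuotientGroup.mk'_surjective N))]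
      exact hS'
    exact (Subgroup.card_le_of_le hR).trans hR2.le
  obtain ⟨hrange, hnle⟩ := squares_index (B := B) SB hSBc hodd
  set R := (powMonoidHom 2 : B →* B).range with hR
  refine ⟨R.comap π, ?_, ?_⟩
  · rw [Subgroup.index_comap_of_surjective R (QuotientGroup.mk'_surjective N), hrange]
  · intro P hP hP2
    have hnot : (R.comap π).subgroupOf (S : Subgroup G) ≠ ⊤ := fun h => hnle (by
      rw [subgroupOf_eq_top] at h
      exact map_le_iff_le_comap.2 h)
    have hNR : N ≤ R.comap π := fun x hx => by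
      show π x ∈ R
      rw [show π x = 1 from (QuotientGroup.eq_one_iff x).2 hx]
      exact one_mem R
    have heq : (R.comap π).subgroupOf (S : Subgroup G) = zpowers a' := by
      refine (Subgroup.eq_of_le_of_card_ge (hSN ▸ fun x hx => hNR hx) ?_).symm
      have h1 := ((R.comap π).subgroupOf (S : Subgroup G)).card_mul_index
      have h2 := (zpowers a').card_mul_index
      rw [hidx'] at h2
      have h3 : 2 ≤ ((R.comap π).subgroupOf (S : Subgroup G)).index := by
        rcases Nat.lt_or_ge ((R.comap π).subgroupOf (S : Subgroup G)).index 2 with h | h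
        · have h0 : ((R.comap π).subgroupOf (S : Subgroup G)).index ≠ 0 := index_ne_zero_of_finite
          exact absurd (index_eq_one.1 (by omega)) hnot
        · exact h
      nlinarith
    haveI : (R.comap π).Normal := inferInstance
    obtain ⟨Q, hQ⟩ := hP2.exists_le_sylow
    obtain ⟨x, hx⟩ := MulAction.exists_smul_eq G Q S
    have hPS : ∀ y ∈ P, x * y * x⁻¹ ∈ (S : Subgroup G) := by
      intro y hy
      rw [← hx, Sylow.coe_subgroup_smul]
      exact ⟨y, hQ hy, rfl⟩
    have hPR : ∀ y ∈ P, x * y * x⁻¹ ∈ R.comap π := fun y hy =>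
      Subgroup.Normal.conj_mem inferInstance y (hP hy) x
    let φ : P →* zpowers a' :=
      { toFun := fun y => ⟨⟨x * y * x⁻¹, hPS y y.2⟩, heq ▸ mem_subgroupOf.2 (hPR y y.2)⟩
        map_one' := Subtype.ext (Subtype.ext (by simp))
        map_mul' := fun y z => Subtype.ext (Subtype.ext (by simp [mul_assoc])) }
    exact isCyclic_of_injective φ fun y z h => by
      have h' := congrArg (fun w : zpowers a' => ((w : (S : Subgroup G)) : G)) h
      exact Subtype.ext (mul_left_cancel (mul_right_cancel h'))

/-- Outside the quaternion case the derived group is cyclic. -/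
theorem commutator_cyclic (hU : Uniq G) [Group.IsSolvable G]
    (hQ : ¬ Nonempty (Cfsg.pCore 2 G ≃* QuaternionGroup 2)) : IsCyclic (commutator G) := by
  classical
  haveI : Fact (Nat.Prime 2) := ⟨Nat.prime_two⟩
  obtain ⟨A, ⟨hAn, hAc⟩, hAmax⟩ := Set.Finite.exists_maximalFor id
    {B : Subgroup G | B.Normal ∧ IsMulCommutative B} (Set.toFinite _)
    ⟨⊥, inferInstance, ⟨⟨fun a b => Subsingleton.elim _ _⟩⟩⟩
  haveI := hAn
  haveI := hAc
  have hmax : ∀ B : Subgroup G, B.Normal → IsMulCommutative B → A ≤ B → B ≤ A := fun B h1 h2 h3 =>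
    hAmax ⟨h1, h2⟩ h3
  have hcyc : ∀ (B : Subgroup G), IsMulCommutative B → IsCyclic B := by
    intro B hB
    haveI : IsZGroup B := by
      rw [isZGroup_iff]
      intro p hp P
      haveI := Fact.mk hp
      haveI hc : IsMulCommutative (P : Subgroup B) := ⟨⟨fun a b => Subtype.ext (hB.is_comm.comm a.1 b.1)⟩⟩
      rcases cyclic_or_inverted hU ((P : Subgroup B).map B.subtype) (P.2.map _) with h | ⟨-, a, g, ha, -, -, hinv, -⟩
      · exact isCyclic_of_surjective ((P : Subgroup B).equivMapOfInjective _ B.subtype_injective).symm.toMonoidHom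
          ((P : Subgroup B).equivMapOfInjective _ B.subtype_injective).symm.surjective
      · exfalso
        haveI : IsMulCommutative ((P : Subgroup B).map B.subtype) := Subgroup.map_isMulCommutative _ _
        rw [IsMulCommutative.is_comm.comm g a, mul_inv_cancel_right] at hinv
        have : a ^ 2 = 1 := by rw [pow_two]; nth_rw 1 [hinv]; rw [inv_mul_cancel]
        have := Nat.le_of_dvd two_pos (orderOf_dvd_of_pow_eq_one this)
        omega
    haveI : Group.IsNilpotent B := Cfsg.Lib.Solv.nilpotent_of_commutator_le_center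
      fun x _ => mem_center_iff.2 fun y => hB.is_comm.comm y x
    infer_instance
  have hself : centralizer (A : Set G) ≤ A := by
    by_contra hne
    set Cz := centralizer (A : Set G)
    have hACz : A ≤ Cz := Subgroup.le_centralizer A
    set q := QuotientGroup.mk' A with hq
    have hne' : Cz.map q ≠ ⊥ := by
      rw [Ne, Subgroup.map_eq_bot_iff, QuotientGroup.ker_mk']
      exact hne
    haveI : (Cz.map q).Normal := Subgroup.Normal.map inferInstance q (QuotientGroup.mk'_surjective A)
    obtain ⟨M, hMn, hMC, hMne, hMmin⟩ := Cfsg.Lib.Solv.exists_minimal_normal_le hne'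
    haveI := hMn
    obtain ⟨hMab, -⟩ := Cfsg.Lib.Solv.minimal_normal_elementary hMne
      (Group.isSolvable_of_isSolvable_injective (f := M.subtype) M.subtype_injective) hMmin
    set B := M.comap q with hB
    have hBC : B ≤ Cz := by
      refine (comap_mono hMC).trans ?_
      rw [comap_map_eq, QuotientGroup.ker_mk', sup_eq_left.2 hACz]
    have hAB : A ≤ B := fun x hx => by
      show q x ∈ M
      rw [show q x = 1 from (QuotientGroup.eq_one_iff x).2 hx]
      exact one_mem M
    haveI hBn : B.Normal := hMn.comap q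
    haveI hBnil : Group.IsNilpotent B := by
      refine Cfsg.Lib.Solv.nilpotent_of_commutator_le_center ?_
      rw [_root_.commutator_def, commutator_le]
      intro u _ v _
      rw [mem_center_iff]
      intro w
      have hmem : (⁅(u : G), (v : G)⁆) ∈ A := by
        rw [← QuotientGroup.ker_mk' A, MonoidHom.mem_ker, map_commutatorElement,
          commutatorElement_eq_one_iff_mul_comm]
        exact congrArg Subtype.val (hMab.is_comm.comm (⟨q u, u.2⟩ : M) ⟨q v, v.2⟩)
      apply Subtype.ext
      rw [coe_mul, coe_mul, show ((⁅u, v⁆ : B) : G) = ⁅(u : G), (v : G)⁆ from map_commutatorElement B.subtype u v]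
      exact ((mem_centralizer_iff.1 (hBC w.2)) _ hmem).symm
    have hnab : ¬ IsMulCommutative B := fun h => by
      have hBA := hmax B hBn h hAB
      apply hMne
      rw [← le_bot_iff, ← comap_le_comap_of_surjective (QuotientGroup.mk'_surjective A),
        MonoidHom.comap_bot, QuotientGroup.ker_mk']
      exact hBA
    -- the Sylow 2-subgroup
    obtain ⟨T₀⟩ : Nonempty (Sylow 2 B) := inferInstance
    have hT₀n : (T₀ : Subgroup B).Normal :=
      T₀.normal_of_normalizerCondition Group.normalizerCondition_of_isNilpotent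
    set T := (T₀ : Subgroup B).map B.subtype with hT
    haveI := hT₀n
    haveI := Sylow.characteristic_of_normal T₀ hT₀n
    haveI hTn : T.Normal := ConjAct.normal_of_characteristic_of_normal
    have hT2 : IsPGroup 2 T := T₀.2.map _
    have hTnc : ¬ IsCyclic T := by
      intro hc
      apply hnab
      haveI : IsCyclic (T₀ : Subgroup B) := isCyclic_of_injective
        ((T₀ : Subgroup B).equivMapOfInjective _ B.subtype_injective).toMonoidHom
        ((T₀ : Subgroup B).equivMapOfInjective _ B.subtype_injective).injective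
      haveI : IsZGroup B := by
        rw [isZGroup_iff]
        intro p hp P
        haveI := Fact.mk hp
        by_cases h2 : p = 2
        · subst h2
          obtain ⟨x, hx⟩ := MulAction.exists_smul_eq B T₀ P
          rw [← hx, Sylow.coe_subgroup_smul]
          exact isCyclic_of_surjective
            (Subgroup.equivSMul (MulAut.conj x) (T₀ : Subgroup B)).toMonoidHom
            (Subgroup.equivSMul (MulAut.conj x) (T₀ : Subgroup B)).surjective
        · rcases cyclic_or_inverted hU ((P : Subgroup B).map B.subtype) (P.2.map _) with h | ⟨h, -⟩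
          · exact isCyclic_of_surjective ((P : Subgroup B).equivMapOfInjective _ B.subtype_injective).symm.toMonoidHom
              ((P : Subgroup B).equivMapOfInjective _ B.subtype_injective).symm.surjective
          · exact absurd h h2
      haveI : IsCyclic B := inferInstance
      exact IsCyclic.isMulCommutative
    set O := Cfsg.pCore 2 G with hO
    have hTO : T ≤ O := Cfsg.Lib.Solv.le_pCore hTn hT2
    have hO2 : IsPGroup 2 O := Cfsg.Lib.Solv.isPGroup_pCore 2
    rcases cyclic_or_inverted hU O hO2 with h | ⟨-, a, g, ha4, hidx, hg, hinv, hg2⟩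
    · exact hTnc (isCyclic_of_injective (Subgroup.inclusion hTO) (Subgroup.inclusion_injective hTO))
    obtain ⟨l, hl⟩ := hO2.exists_orderOf_eq_pow a
    have hl3 : 3 ≤ l := by
      by_contra hlt
      have hl2 : l = 2 := by
        have : (2 : ℕ) ^ l ≤ 2 ^ 2 := Nat.pow_le_pow_right two_pos (by omega)
        rcases Nat.lt_or_ge l 2 with h' | h'
        · have : (2 : ℕ) ^ l ≤ 2 ^ 1 := Nat.pow_le_pow_right two_pos (by omega)
          omega
        · omega
      rw [hl2] at hl
      refine hQ (Cfsg.Lib.ZStar.nonempty_quaternion_of_inverted (n := 2) (by norm_num)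
        (hl.trans (by norm_num)) hidx hg hinv ?_)
      rw [hg2, hl]
      norm_num
    have ha8 : 8 ≤ orderOf a := by rw [hl]; exact Nat.pow_le_pow_right two_pos hl3 |>.trans' (by norm_num)
    have hgg : ∀ t : O, t ∉ zpowers a → t * a * t⁻¹ = a⁻¹ ∧ t ^ 2 = g ^ 2 := by
      intro t ht
      have h1 : t * g⁻¹ ∈ zpowers a := by rw [mul_mem_iff_of_index_two hidx]; simp [ht, hg]
      obtain ⟨i, hi⟩ := mem_zpowers_iff.1 h1
      have ht' : t = a ^ i * g := by rw [hi]; group
      have hgi : g * a ^ i * g⁻¹ = (a ^ i)⁻¹ := by rw [← conj_zpow, hinv, inv_zpow]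
      refine ⟨?_, ?_⟩
      · rw [ht']
        calc a ^ i * g * a * (a ^ i * g)⁻¹ = a ^ i * (g * a * g⁻¹) * (a ^ i)⁻¹ := by group
          _ = a⁻¹ := by rw [hinv]; group
      · rw [ht', pow_two, pow_two]
        calc a ^ i * g * (a ^ i * g) = a ^ i * (g * a ^ i * g⁻¹) * (g * g) := by group
          _ = g * g := by rw [hgi, mul_inv_cancel, one_mul]
    haveI hOn : O.Normal := inferInstance
    set C := zpowers (a : G) with hC
    haveI hCn : C.Normal := by
      refine ⟨fun x hx y => ?_⟩
      have hmem : y * (a : G) * y⁻¹ ∈ O := hOn.conj_mem _ a.2 y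
      have hin : (⟨_, hmem⟩ : O) ∈ zpowers a := by
        by_contra hout
        have h4 : (⟨_, hmem⟩ : O) ^ 4 = 1 := by
          rw [show (4 : ℕ) = 2 * 2 by rfl, pow_mul, (hgg _ hout).2, hg2, ← pow_mul,
            Nat.div_mul_cancel (by rw [hl]; exact dvd_pow_self 2 (by omega)), pow_orderOf_eq_one]
        have h5 := orderOf_dvd_of_pow_eq_one h4
        rw [Subgroup.orderOf_mk, show y * (a : G) * y⁻¹ = MulAut.conj y (a : G) from rfl,
          MulEquiv.orderOf_eq, orderOf_coe] at h5
        have := Nat.le_of_dvd (by norm_num) h5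
        omega
      obtain ⟨i, hi⟩ := mem_zpowers_iff.1 hin
      have hi' : (a : G) ^ i = y * a * y⁻¹ := by simpa using congrArg Subtype.val hi
      obtain ⟨j, rfl⟩ := mem_zpowers_iff.1 hx
      rw [← conj_zpow, ← hi', ← zpow_mul]
      exact zpow_mem (mem_zpowers _) _
    obtain ⟨t, htT, htC⟩ : ∃ t : O, (t : G) ∈ T ∧ t ∉ zpowers a := by
      by_contra hcon
      push Not at hcon
      have hTC : T ≤ C := fun x hx => by
        obtain ⟨i, hi⟩ := mem_zpowers_iff.1 (hcon ⟨x, hTO hx⟩ hx)
        exact ⟨i, by simpa using congrArg Subtype.val hi⟩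
      exact hTnc (isCyclic_of_injective (Subgroup.inclusion hTC) (Subgroup.inclusion_injective hTC))
    have htA : ∀ x ∈ A, Commute (t : G) x := fun x hx =>
      ((mem_centralizer_iff.1 (hBC (Subgroup.map_subtype_le _ htT))) x hx).symm
    have hsq : ∀ d ∈ A, d ∈ C → d ^ 2 = 1 := by
      intro d hd hdC
      obtain ⟨i, rfl⟩ := mem_zpowers_iff.1 hdC
      have h1 : (t : G) * (a : G) * (t : G)⁻¹ = ((a : G))⁻¹ := by
        simpa using congrArg Subtype.val (hgg t htC).1
      have h2 : (t : G) * (a : G) ^ i * (t : G)⁻¹ = ((a : G) ^ i)⁻¹ := by rw [← conj_zpow, h1, inv_zpow]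
      rw [(htA _ hd).eq, mul_inv_cancel_right] at h2
      rw [pow_two]
      nth_rw 1 [h2]
      rw [inv_mul_cancel]
    have hcomm : ∀ x ∈ A, Commute x (a : G) := by
      intro x hx
      set d := (a : G)⁻¹ * x * a * x⁻¹ with hd
      have hdC : d ∈ C := by
        rw [hd, mul_assoc ((a : G)⁻¹), mul_assoc ((a : G)⁻¹)]
        exact mul_mem (inv_mem (mem_zpowers _)) (hCn.conj_mem _ (mem_zpowers _) x)
      have hdA : d ∈ A := by
        rw [hd]
        refine mul_mem ?_ (inv_mem hx)
        simpa using hAn.conj_mem x hx (a : G)⁻¹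
      have hxd : Commute x d := congrArg Subtype.val (hAc.is_comm.comm (⟨x, hx⟩ : A) ⟨d, hdA⟩)
      have had : Commute (a : G) d := by
        obtain ⟨i, hi⟩ := mem_zpowers_iff.1 hdC
        rw [← hi]; exact Commute.self_zpow _ i
      have hxa : x * a * x⁻¹ = a * d := by rw [hd]; group
      have hit : ∀ j : ℕ, x ^ j * a * (x ^ j)⁻¹ = a * d ^ j := by
        intro j
        induction j with
        | zero => simp
        | succ j ih =>
          calc x ^ (j + 1) * a * (x ^ (j + 1))⁻¹ = x * (x ^ j * a * (x ^ j)⁻¹) * x⁻¹ := by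
                rw [pow_succ']; group
            _ = x * a * d ^ j * x⁻¹ := by rw [ih]; group
            _ = x * a * (d ^ j * x⁻¹) := by rw [mul_assoc]
            _ = x * a * (x⁻¹ * d ^ j) := by rw [((hxd.pow_right j).inv_left).eq]
            _ = a * d * d ^ j := by rw [← hxa]; group
            _ = _ := by rw [mul_assoc, pow_succ']
      obtain ⟨k, s, hs, hks⟩ := Nat.exists_eq_two_pow_mul_odd (n := orderOf x) (orderOf_pos x).ne'
      have hxs : orderOf (x ^ s) = 2 ^ k := by
        rw [orderOf_pow_of_dvd (by rintro rfl; simp at hs) (Dvd.intro_left _ hks.symm), hks,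
          Nat.mul_div_cancel _ hs.pos]
      have hxs2 : (x ^ s) ^ 2 = 1 := sq_eq_one hU T hT2 hTnc hxs fun y hy =>
        (show Commute x y from (mem_centralizer_iff.1 (hBC (Subgroup.map_subtype_le _ hy))) x hx).pow_left s
      have hxsa : Commute (x ^ s) (a : G) := by
        rcases eq_or_ne (x ^ s) 1 with e | e
        · rw [e]; exact Commute.one_left _
        have ox : orderOf (x ^ s) = 2 := orderOf_eq_prime hxs2 e
        obtain ⟨P', hP'⟩ : ∃ P' : Subgroup G, P' = O ⊔ zpowers (x ^ s) := ⟨_, rfl⟩
        have hP2 : IsPGroup 2 P' := hP' ▸ hO2.to_sup_of_normal_left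
          (IsPGroup.of_card (n := 1) (by rw [Nat.card_zpowers, ox, pow_one]))
        have haP : (a : G) ∈ P' := hP' ▸ mem_sup_left a.2
        have hxP : x ^ s ∈ P' := hP' ▸ mem_sup_right (mem_zpowers _)
        have hmem := hU 2 Nat.prime_two P' hP2 ((⟨a, haP⟩ : P') ^ (orderOf a / 2)) ⟨x ^ s, hxP⟩
          (by
            have h2d : 2 ∣ orderOf a := by rw [hl]; exact dvd_pow_self 2 (show l ≠ 0 by omega)
            have hoa : orderOf (⟨a, haP⟩ : P') = orderOf a := (Subgroup.orderOf_mk _ _).trans (orderOf_coe _)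
            rw [orderOf_pow_of_dvd (show orderOf a / 2 ≠ 0 by omega) (by
              rw [hoa]
              exact Nat.div_dvd_of_dvd h2d), hoa]
            exact Nat.div_div_self h2d (by omega))
          (by rw [Subgroup.orderOf_mk]; exact ox)
        obtain ⟨i, hi⟩ := mem_zpowers_iff.1 hmem
        have hi' : ((a : G) ^ (orderOf a / 2)) ^ i = x ^ s := by simpa using congrArg Subtype.val hi
        rw [← hi']
        exact ((Commute.refl (a : G)).pow_left _).zpow_left i
      have h1 := hit s
      rw [hxsa.eq, mul_inv_cancel_right, left_eq_mul] at h1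
      have h2 := hsq d hdA hdC
      obtain ⟨v, rfl⟩ := hs
      rw [pow_succ, pow_mul, h2, one_pow, one_mul] at h1
      rw [h1, mul_one] at hxa
      exact mul_inv_eq_iff_eq_mul.1 hxa
    haveI : IsMulCommutative (A ⊔ C : Subgroup G) := by
      have hcl : A ⊔ C = closure ((A : Set G) ∪ {(a : G)}) := by
        rw [Subgroup.closure_union, closure_eq, hC, zpowers_eq_closure]
      rw [hcl]
      refine isMulCommutative_closure ?_
      rintro u (hu | rfl) v (hv | rfl)
      exacts [congrArg Subtype.val (hAc.is_comm.comm (⟨u, hu⟩ : A) ⟨v, hv⟩), (hcomm u hu).eq,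
        (hcomm v hv).eq.symm, rfl]
    have hCA : C ≤ A := le_sup_right.trans (hmax _ inferInstance this le_sup_left)
    have := hsq _ (hCA (mem_zpowers _)) (mem_zpowers _)
    have h5 := Nat.le_of_dvd two_pos (orderOf_dvd_of_pow_eq_one this)
    rw [orderOf_coe] at h5
    omega
  haveI : IsCyclic A := hcyc A hAc
  have hle : commutator G ≤ A := by
    rw [_root_.commutator_def, commutator_le]
    intro x _ y _
    refine hself (mem_centralizer_iff.2 fun z hz => ?_)
    let φ : G →* MulAut A := MulAut.conjNormal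
    have hcm : φ x * φ y = φ y * φ x := by
      let e := IsCyclic.mulAutMulEquiv A
      apply e.injective
      rw [map_mul, map_mul, mul_comm]
    have h1 : φ ⁅x, y⁆ = 1 := by
      rw [map_commutatorElement, commutatorElement_eq_one_iff_mul_comm, hcm]
    have h2 := congrArg (fun ψ : MulAut A => ((ψ ⟨z, hz⟩ : A) : G)) h1
    simp only [φ, MulAut.conjNormal_apply, MulAut.one_apply] at h2
    exact (mul_inv_eq_iff_eq_mul.1 h2).symm
  exact isCyclic_of_injective (Subgroup.inclusion hle) (Subgroup.inclusion_injective hle)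

end Cfsg.Lib.Recog.SolvCompl
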