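import Mathlib
import Cfsg.Agent.Lib.Recog.RegularLinearSpan

/-!
# Elements of primitive prime order in linear groups
-/

set_option autoImplicit false
set_option linter.style.haveILetI false
open Subgroup
open scoped commutatorElement

namespace Cfsg.Lib.Recog.TransLin

open RegLin (lin)

variable {q : ℕ} [Fact q.Prime] {V : Type*} [AddCommGroup V] [Module (ZMod q) V]
  {G : Type*} [Group G] {ρ : G →* (V ≃ₗ[ZMod q] V)}

/-- `r` is a primitive prime for `q ^ n`. -/
structure Prim (q n r : ℕ) : Prop where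
  prime : r.Prime
  dvd : r ∣ q ^ n - 1
  prim : ∀ k, 0 < k → k < n → ¬ r ∣ q ^ k - 1

theorem Prim.ne {q n r : ℕ} [hq : Fact q.Prime] (P : Prim q n r) (hn : 0 < n) : r ≠ q := by
  intro e
  have h1 := P.dvd
  rw [e] at h1
  have h2 : q ∣ q ^ n := dvd_pow_self q hn.ne'
  have h3 := Nat.dvd_sub h2 h1
  rw [Nat.sub_sub_self (Nat.one_le_pow _ _ hq.out.pos)] at h3
  exact hq.out.ne_one (Nat.dvd_one.1 h3)

theorem Prim.lt {q n r : ℕ} [hq : Fact q.Prime] (P : Prim q n r) (hn : 0 < n) : n < r := by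
  haveI := Fact.mk P.prime
  have hq1 : ∀ k, (q : ZMod r) ^ k = 1 ↔ r ∣ q ^ k - 1 := fun k => by
    rw [← ZMod.natCast_eq_zero_iff, Nat.cast_sub (Nat.one_le_pow _ _ hq.out.pos), Nat.cast_pow, Nat.cast_one,
      sub_eq_zero]
  have ho : orderOf (q : ZMod r) = n :=
    (orderOf_eq_iff hn).2 ⟨(hq1 n).2 P.dvd, fun k hk hk0 e => P.prim k hk0 hk ((hq1 k).1 e)⟩
  have hne : (q : ZMod r) ≠ 0 := fun e => P.ne hn
    ((Nat.prime_dvd_prime_iff_eq P.prime hq.out).1 ((ZMod.natCast_eq_zero_iff q r).1 e))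
  have := Nat.le_of_dvd (by have := P.prime.two_le; omega)
    (ho ▸ orderOf_dvd_of_pow_eq_one (ZMod.pow_card_sub_one_eq_one hne))
  have := P.prime.two_le
  omega

/-- A permutation of prime order with a single fixed point. -/
theorem dvd_card_sub_one {X : Type*} [Finite X] {r : ℕ} [Fact r.Prime] (σ : Equiv.Perm X) (hσ : σ ^ r = 1)
    (x₀ : X) (h0 : σ x₀ = x₀) (huniq : ∀ x, σ x = x → x = x₀) : r ∣ Nat.card X - 1 := by
  classical
  haveI := Fintype.ofFinite X
  have h := Equiv.Perm.card_compl_support_modEq (p := r) (n := 1) (σ := σ) (by rw [pow_one, hσ])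
  have hs : σ.supportᶜ = {x₀} := by
    ext x
    simp only [Finset.mem_compl, Equiv.Perm.notMem_support, Finset.mem_singleton]
    exact ⟨huniq x, fun e => e ▸ h0⟩
  rw [hs, Finset.card_singleton, ← Nat.card_eq_fintype_card] at h
  exact (Nat.modEq_iff_dvd' (Nat.one_le_iff_ne_zero.2 (by
    haveI : Nonempty X := ⟨x₀⟩
    exact Nat.card_pos.ne'))).1 h

theorem fix_zero [Finite V] (hinj : Function.Injective ρ) {n r : ℕ} (hn : 0 < n)
    (hdim : Module.finrank (ZMod q) V = n) (P : Prim q n r) {g : G} (hg : g ^ r = 1) (hg1 : g ≠ 1)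
    (v : V) (hv : ρ g v = v) : v = 0 := by
  haveI := Fact.mk P.prime
  set D : Module.End (ZMod q) V := lin ρ g - 1 with hD
  have hDa : ∀ w, D w = ρ g w - w := fun w => rfl
  have hint : ∀ w, ρ g (D w) = D w → D w = 0 := by
    intro w hw
    rw [hDa, map_sub] at hw
    have hit : ∀ k : ℕ, ρ (g ^ k) w = w + k • D w := by
      intro k
      induction k with
      | zero => rw [pow_zero, map_one, zero_smul, add_zero]; rfl
      | succ k ih =>
        rw [pow_succ', map_mul, LinearEquiv.mul_apply, ih, map_add, map_nsmul, hDa, map_sub, hw, succ_nsmul]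
        abel
    have h1 := hit r
    rw [hg, map_one, ← Nat.cast_smul_eq_nsmul (ZMod q)] at h1
    have h2 : ((r : ℕ) : ZMod q) • D w = 0 := by
      have h3 : w = w + ((r : ℕ) : ZMod q) • D w := h1
      exact left_eq_add.1 h3
    exact (smul_eq_zero.1 h2).resolve_left fun e =>
      P.ne hn ((Nat.prime_dvd_prime_iff_eq (Fact.out : q.Prime) P.prime).1 ((ZMod.natCast_eq_zero_iff r q).1 e)).symm
  set U := LinearMap.range D with hU
  let σ : Equiv.Perm U :=
    { toFun := fun x => ⟨ρ g x, by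
        obtain ⟨w, hw⟩ := x.2
        exact ⟨ρ g w, by rw [hDa, ← hw, hDa, map_sub]⟩⟩
      invFun := fun x => ⟨ρ g⁻¹ x, by
        obtain ⟨w, hw⟩ := x.2
        refine ⟨ρ g⁻¹ w, ?_⟩
        rw [hDa, ← hw, hDa, map_sub, ← LinearEquiv.mul_apply (ρ g⁻¹), ← LinearEquiv.mul_apply (ρ g), ← map_mul,
          ← map_mul, mul_inv_cancel, inv_mul_cancel]⟩
      left_inv := fun x => Subtype.ext (by
        show ρ g⁻¹ (ρ g x) = x
        rw [← LinearEquiv.mul_apply, ← map_mul, inv_mul_cancel, map_one]; rfl)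
      right_inv := fun x => Subtype.ext (by
        show ρ g (ρ g⁻¹ x) = x
        rw [← LinearEquiv.mul_apply, ← map_mul, mul_inv_cancel, map_one]; rfl) }
  have hσk : ∀ (k : ℕ) (x : U), (((σ ^ k) x : U) : V) = ρ (g ^ k) x := by
    intro k
    induction k with
    | zero => intro x; rw [pow_zero, pow_zero, map_one]; rfl
    | succ k ih => intro x; rw [pow_succ', pow_succ', map_mul, Equiv.Perm.mul_apply, LinearEquiv.mul_apply, ← ih]; rfl
  have hσ : σ ^ r = 1 := Equiv.ext fun x => Subtype.ext (by rw [hσk, hg, map_one]; rfl)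
  have hd : r ∣ Nat.card U - 1 := by
    refine dvd_card_sub_one σ hσ 0 (Subtype.ext (map_zero _)) fun x hx => Subtype.ext ?_
    obtain ⟨w, hw⟩ := x.2
    have h1 : ρ g x = x := congrArg Subtype.val hx
    rw [← hw] at h1 ⊢
    exact hint w h1
  rw [Module.natCard_eq_pow_finrank (K := ZMod q), Nat.card_zmod] at hd
  rcases Nat.eq_zero_or_pos (Module.finrank (ZMod q) U) with h0 | h0
  · exfalso
    have hbot : LinearMap.range D = ⊥ := Submodule.finrank_eq_zero.1 h0
    refine hg1 (hinj (LinearEquiv.ext fun w => ?_))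
    have h1 : D w ∈ LinearMap.range D := LinearMap.mem_range_self D w
    rw [hbot, Submodule.mem_bot, hDa, sub_eq_zero] at h1
    rw [map_one, h1]
    rfl
  · have hle : Module.finrank (ZMod q) U ≤ n := hdim ▸ Submodule.finrank_le U
    have htop : LinearMap.range D = ⊤ := by
      refine Submodule.eq_top_of_finrank_eq ?_
      rw [hdim]
      by_contra hne
      exact P.prim _ h0 (lt_of_le_of_ne hle hne) hd
    have hinjD : Function.Injective D := LinearMap.injective_iff_surjective.2 (LinearMap.range_eq_top.1 htop)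
    exact hinjD (by rw [hDa, hv, sub_self, map_zero])

/-- Order `r` elements act irreducibly. -/
theorem irred [Finite V] (hinj : Function.Injective ρ) {n r : ℕ} (hn : 0 < n)
    (hdim : Module.finrank (ZMod q) V = n) (P : Prim q n r) {g : G} (hg : g ^ r = 1) (hg1 : g ≠ 1)
    (U : Submodule (ZMod q) V) (hU : ∀ x ∈ U, ρ g x ∈ U) (hne : U ≠ ⊥) : U = ⊤ := by
  haveI := Fact.mk P.prime
  let f : U → U := fun x => ⟨ρ g x, hU x x.2⟩
  have hfb : Function.Bijective f := Finite.injective_iff_bijective.1 fun x y e =>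
    Subtype.ext ((ρ g).injective (congrArg Subtype.val e))
  let σ : Equiv.Perm U := Equiv.ofBijective f hfb
  have hσk : ∀ (k : ℕ) (x : U), (((σ ^ k) x : U) : V) = ρ (g ^ k) x := by
    intro k
    induction k with
    | zero => intro x; rw [pow_zero, pow_zero, map_one]; rfl
    | succ k ih => intro x; rw [pow_succ', pow_succ', map_mul, Equiv.Perm.mul_apply, LinearEquiv.mul_apply, ← ih]; rfl
  have hσ : σ ^ r = 1 := Equiv.ext fun x => Subtype.ext (by rw [hσk, hg, map_one]; rfl)
  have hd : r ∣ Nat.card U - 1 := dvd_card_sub_one σ hσ 0 (Subtype.ext (map_zero _)) fun x hx =>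
    Subtype.ext (fix_zero hinj hn hdim P hg hg1 x (congrArg Subtype.val hx))
  rw [Module.natCard_eq_pow_finrank (K := ZMod q), Nat.card_zmod] at hd
  have h0 : 0 < Module.finrank (ZMod q) U := Nat.pos_of_ne_zero fun e => hne (Submodule.finrank_eq_zero.1 e)
  refine Submodule.eq_top_of_finrank_eq ?_
  rw [hdim]
  by_contra hne'
  exact P.prim _ h0 (lt_of_le_of_ne (hdim ▸ Submodule.finrank_le U) hne') hd

/-- An element of primitive prime order centralizes each abelian subgroup that it normalizes. -/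
theorem centralize_abelian [Finite V] [Finite G] [Nontrivial V] (hinj : Function.Injective ρ) {n r : ℕ} (hn : 0 < n)
    (hdim : Module.finrank (ZMod q) V = n) (P : Prim q n r) {g : G} (hg : g ^ r = 1) (hg1 : g ≠ 1)
    (B : Subgroup G) (hB : ∀ a ∈ B, ∀ b ∈ B, Commute a b) (hBg : ∀ b ∈ B, g * b * g⁻¹ ∈ B) :
    ∀ b ∈ B, Commute g b := by
  classical
  haveI := Fact.mk P.prime
  haveI : Finite (Module.End (ZMod q) V) :=
    Finite.of_injective (fun f : Module.End (ZMod q) V => (f : V → V)) DFunLike.coe_injective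
  set S : Set (Module.End (ZMod q) V) := lin ρ '' (B : Set G) with hS
  set K := Algebra.adjoin (ZMod q) S with hK
  have hKc : ∀ x ∈ K, ∀ y ∈ K, Commute x y := fun x hx y hy => by
    refine Algebra.commute_of_mem_adjoin_of_forall_mem_commute hy fun s hs => ?_
    refine (Algebra.commute_of_mem_adjoin_of_forall_mem_commute hx fun t ht => ?_).symm
    obtain ⟨a, ha, rfl⟩ := hs
    obtain ⟨b, hb, rfl⟩ := ht
    exact (hB a ha b hb).map (lin ρ)
  have hconj : ∀ x ∈ K, lin ρ g * x * lin ρ g⁻¹ ∈ K := by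
    intro x hx
    induction hx using Algebra.adjoin_induction with
    | mem x hx =>
      obtain ⟨a, ha, rfl⟩ := hx
      rw [← map_mul, ← map_mul]
      exact Algebra.subset_adjoin ⟨_, hBg a ha, rfl⟩
    | algebraMap r' =>
      rw [← Algebra.commutes, mul_assoc, ← map_mul, mul_inv_cancel, map_one, mul_one]
      exact K.algebraMap_mem r'
    | add x y _ _ hx hy => rw [mul_add, add_mul]; exact add_mem hx hy
    | mul x y _ _ hx hy =>
      have : lin ρ g * (x * y) * lin ρ g⁻¹ = (lin ρ g * x * lin ρ g⁻¹) * (lin ρ g * y * lin ρ g⁻¹) := by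
        simp only [mul_assoc]
        rw [← mul_assoc (lin ρ g⁻¹) (lin ρ g), ← map_mul, inv_mul_cancel, map_one, one_mul]
      rw [this]
      exact mul_mem hx hy
  -- conjugation by powers of `g`
  have hconjk : ∀ (k : ℕ), ∀ x ∈ K, lin ρ (g ^ k) * x * lin ρ (g ^ k)⁻¹ ∈ K := by
    intro k
    induction k with
    | zero => intro x hx; simpa using hx
    | succ k ih =>
      intro x hx
      have := hconj _ (ih x hx)
      rw [pow_succ', mul_inv_rev, map_mul, map_mul]
      simpa only [mul_assoc] using this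
  -- a minimal cyclic submodule
  let O : V → Set V := fun v => (fun x : K => x.1 v) '' Set.univ
  obtain ⟨w₀, hw₀, hmin⟩ := (Set.toFinite {v : V | v ≠ 0}).exists_minimalFor (fun v => (O v).ncard) _ (exists_ne (0 : V))
  have hO : ∀ x : K, x.1 w₀ ≠ 0 → ∃ z : K, z.1 (x.1 w₀) = w₀ := by
    intro x hx
    have hsub : O (x.1 w₀) ⊆ O w₀ := by
      rintro _ ⟨z, -, rfl⟩
      exact ⟨z * x, trivial, rfl⟩
    have heq : O (x.1 w₀) = O w₀ := Set.eq_of_subset_of_ncard_le hsub
      (hmin hx (Set.ncard_le_ncard hsub (Set.toFinite _))) (Set.toFinite _)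
    obtain ⟨z, -, hz⟩ : w₀ ∈ O (x.1 w₀) := heq ▸ ⟨1, trivial, rfl⟩
    exact ⟨z, hz⟩
  -- the annihilators of the translates
  let J : ℕ → Set K := fun i => {x | x.1 (ρ (g ^ i) w₀) = 0}
  have hJmul : ∀ i (x y : K), x * y ∈ J i → x ∈ J i ∨ y ∈ J i := by
    intro i x y hxy
    let c : K → K := fun x => ⟨lin ρ (g ^ i)⁻¹ * x.1 * lin ρ (g ^ i), by
      have : (g ^ i)⁻¹ = g ^ ((r - 1) * i) := by
        rw [inv_eq_iff_mul_eq_one, ← pow_add, show i + (r - 1) * i = r * i by
          obtain ⟨s, hs⟩ : ∃ s, r = s + 1 := ⟨r - 1, by have := P.prime.two_le; omega⟩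
          rw [hs, Nat.add_sub_cancel]; ring, pow_mul, hg, one_pow]
      have h2 := hconjk ((r - 1) * i) x.1 x.2
      rw [← this, inv_inv] at h2
      exact h2⟩
    have hmem : ∀ z : K, z ∈ J i ↔ (c z).1 w₀ = 0 := fun z => by
      show z.1 (ρ (g ^ i) w₀) = 0 ↔ ρ (g ^ i)⁻¹ (z.1 (ρ (g ^ i) w₀)) = 0
      exact (LinearEquiv.map_eq_zero_iff _).symm
    rw [hmem, hmem] at *
    by_contra hne
    push Not at hne
    obtain ⟨hx, hy⟩ := hne
    obtain ⟨u, hu⟩ := hO (c y) hy
    apply hx
    have hc : (c (x * y)).1 = (c x).1 * (c y).1 := by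
      show _ * (x.1 * y.1) * _ = (_ * x.1 * _) * (_ * y.1 * _)
      simp only [mul_assoc]
      rw [← mul_assoc (lin ρ (g ^ i)) (lin ρ (g ^ i)⁻¹), ← map_mul, mul_inv_cancel, map_one, one_mul]
    rw [← hu]
    calc (c x).1 (u.1 ((c y).1 w₀)) = u.1 (((c x).1 * (c y).1) w₀) :=
          LinearMap.congr_fun (hKc _ (c x).2 _ u.2).eq ((c y).1 w₀)
      _ = 0 := by rw [← hc, hxy, map_zero]
  have hgw : ∀ i, ρ (g ^ i) w₀ ≠ 0 := fun i e => hw₀ ((LinearEquiv.map_eq_zero_iff _).1 e)
  have hone : ∀ i, (1 : K) ∉ J i := fun i e => hgw i e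
  -- translating
  have hstep : ∀ i j, J i ⊆ J j → ∀ k, J (i + k) ⊆ J (j + k) := by
    intro i j hij k x hx
    let c : K := ⟨lin ρ (g ^ k)⁻¹ * x.1 * lin ρ (g ^ k), by
      have : (g ^ k)⁻¹ = g ^ ((r - 1) * k) := by
        rw [inv_eq_iff_mul_eq_one, ← pow_add, show k + (r - 1) * k = r * k by
          obtain ⟨s, hs⟩ : ∃ s, r = s + 1 := ⟨r - 1, by have := P.prime.two_le; omega⟩
          rw [hs, Nat.add_sub_cancel]; ring, pow_mul, hg, one_pow]
      have h2 := hconjk ((r - 1) * k) x.1 x.2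
      rw [← this, inv_inv] at h2
      exact h2⟩
    have hm : ∀ l, c ∈ J l ↔ x ∈ J (l + k) := fun l => by
      show ρ (g ^ k)⁻¹ (x.1 (ρ (g ^ k) (ρ (g ^ l) w₀))) = 0 ↔ x.1 (ρ (g ^ (l + k)) w₀) = 0
      rw [LinearEquiv.map_eq_zero_iff, ← LinearEquiv.mul_apply, ← map_mul, ← pow_add, add_comm]
    exact (hm j).1 (hij ((hm i).2 hx))
  by_cases hfix : J 0 ⊆ J 1
  · -- `K` is a field
    let U : Submodule (ZMod q) V :=
      { carrier := {v | ∀ x ∈ J 0, x.1 v = 0}
        add_mem' := fun ha hb x hx => by rw [map_add, ha x hx, hb x hx, add_zero]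
        zero_mem' := fun x _ => map_zero _
        smul_mem' := fun c v hv x hx => by rw [map_smul, hv x hx, smul_zero] }
    have hUg : ∀ v ∈ U, ρ g v ∈ U := by
      intro v hv x hx
      let c : K := ⟨lin ρ g⁻¹ * x.1 * lin ρ g, by
        have : g⁻¹ = g ^ (r - 1) := by
          rw [inv_eq_iff_mul_eq_one, ← pow_succ', Nat.sub_add_cancel P.prime.one_lt.le, hg]
        have h2 := hconjk (r - 1) x.1 x.2
        rw [← this, inv_inv] at h2
        exact h2⟩
      have hc0 : c ∈ J 0 := by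
        have hx1 := hfix hx
        show ρ g⁻¹ (x.1 (ρ g (ρ (g ^ 0) w₀))) = 0
        rw [LinearEquiv.map_eq_zero_iff, ← LinearEquiv.mul_apply, ← map_mul, ← pow_succ']
        exact hx1
      have := hv c hc0
      exact (LinearEquiv.map_eq_zero_iff _).1 this
    have hw0U : w₀ ∈ U := fun x hx => by simpa [J] using hx
    have hUtop := irred hinj hn hdim P hg hg1 U hUg (fun e => hw₀ (by rwa [e, Submodule.mem_bot] at hw0U))
    have hdom : ∀ x ∈ J 0, x = 0 := fun x hx => Subtype.ext (LinearMap.ext fun v =>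
      (show v ∈ U by rw [hUtop]; exact Submodule.mem_top) x hx)
    letI : CommRing K := { (inferInstance : Ring K) with mul_comm := fun x y => Subtype.ext (hKc _ x.2 _ y.2).eq }
    haveI : Nontrivial K := ⟨1, 0, fun e => hone 0 (by rw [e]; exact LinearMap.zero_apply _)⟩
    haveI : NoZeroDivisors K := ⟨fun {a b} hab => (hJmul 0 a b (by rw [hab]; exact LinearMap.zero_apply _)).imp
      (hdom a) (hdom b)⟩
    haveI : IsDomain K := NoZeroDivisors.to_isDomain _
    letI : Field K := (Finite.isField_of_domain K).toField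
    let σ : K →ₐ[ZMod q] K :=
      { toFun := fun x => ⟨lin ρ g * x.1 * lin ρ g⁻¹, hconj x.1 x.2⟩
        map_one' := Subtype.ext (show lin ρ g * 1 * lin ρ g⁻¹ = 1 by
          rw [mul_one, ← map_mul, mul_inv_cancel, map_one])
        map_mul' := fun x y => Subtype.ext (show lin ρ g * (x.1 * y.1) * lin ρ g⁻¹ = _ by
          show _ = (lin ρ g * x.1 * lin ρ g⁻¹) * (lin ρ g * y.1 * lin ρ g⁻¹)
          simp only [mul_assoc]
          rw [← mul_assoc (lin ρ g⁻¹) (lin ρ g), ← map_mul, inv_mul_cancel, map_one, one_mul])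
        map_zero' := Subtype.ext (show lin ρ g * 0 * lin ρ g⁻¹ = 0 by rw [mul_zero, zero_mul])
        map_add' := fun x y => Subtype.ext (show lin ρ g * (x.1 + y.1) * lin ρ g⁻¹ = _ by
          rw [mul_add, add_mul]; rfl)
        commutes' := fun r' => Subtype.ext (show lin ρ g * algebraMap _ _ r' * lin ρ g⁻¹ = algebraMap _ _ r' by
          rw [← Algebra.commutes, mul_assoc, ← map_mul, mul_inv_cancel, map_one, mul_one]) }
    have hbij : Function.Bijective σ := Finite.injective_iff_bijective.1 σ.toRingHom.injective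
    let τ : K ≃ₐ[ZMod q] K := AlgEquiv.ofBijective σ hbij
    have hτ : ∀ (k : ℕ) (x : K), ((τ ^ k) x).1 = lin ρ (g ^ k) * x.1 * lin ρ (g ^ k)⁻¹ := by
      intro k
      induction k with
      | zero => intro x; simp
      | succ k ih =>
        intro x
        rw [pow_succ', pow_succ', mul_inv_rev, map_mul, map_mul, AlgEquiv.mul_apply]
        show lin ρ g * ((τ ^ k) x).1 * lin ρ g⁻¹ = _
        rw [ih]
        simp only [mul_assoc]
    have hτr : τ ^ r = 1 := AlgEquiv.ext fun x => Subtype.ext (by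
      rw [hτ, hg, inv_one, map_one, one_mul, mul_one]
      rfl)
    have hlt : Module.finrank (ZMod q) K < r := by
      refine lt_of_le_of_lt (Nat.le_of_dvd (hdim ▸ hn) ?_) (hdim ▸ P.lt hn)
      exact Dvd.intro _ (Module.finrank_mul_finrank (ZMod q) K V)
    have hτ1 : τ = 1 := by
      by_contra hne
      have := Nat.le_of_dvd Nat.card_pos ((orderOf_eq_prime hτr hne) ▸ orderOf_dvd_natCard τ)
      rw [IsGalois.card_aut_eq_finrank] at this
      omega
    intro b hb
    have h1 := hτ 1 ⟨lin ρ b, Algebra.subset_adjoin ⟨b, hb, rfl⟩⟩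
    rw [pow_one, hτ1, pow_one, ← map_mul, ← map_mul] at h1
    exact mul_inv_eq_iff_eq_mul.1 (lin_inj' hinj h1).symm
  · -- the translates are independent
    exfalso
    have hsep : ∀ i j : ℕ, i < r → j < r → i ≠ j → ¬ J i ⊆ J j := by
      intro i j hi hj hij hsub
      obtain ⟨m, hm0, hmr, hm⟩ : ∃ m, 0 < m ∧ m < r ∧ J 0 ⊆ J m := by
        have h := hstep i j hsub (r - i)
        rw [show i + (r - i) = r by omega] at h
        have hper : ∀ k, J (k + r) = J k := fun k => by
          ext x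
          show x.1 (ρ (g ^ (k + r)) w₀) = 0 ↔ x.1 (ρ (g ^ k) w₀) = 0
          rw [pow_add, hg, mul_one]
        rw [← Nat.zero_add r, hper 0, Nat.zero_add] at h
        rcases Nat.lt_or_ge i j with hlt | hge
        · refine ⟨j - i, by omega, by omega, ?_⟩
          rwa [show j + (r - i) = (j - i) + r by omega, hper] at h
        · exact ⟨j + (r - i), by omega, by omega, h⟩
      have hmk : ∀ k : ℕ, J 0 ⊆ J (m * k) := by
        intro k
        induction k with
        | zero => exact subset_rfl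
        | succ k ih =>
          have := hstep 0 m hm (m * k)
          rw [Nat.zero_add] at this
          rw [show m * (k + 1) = m + m * k by ring]
          exact ih.trans this
      obtain ⟨k, hk⟩ := Nat.exists_mul_mod_eq_one_of_coprime (n := m) (k := r)
        ((P.prime.coprime_iff_not_dvd.2 (fun hd => by have := Nat.le_of_dvd hm0 hd; omega)).symm) P.prime.one_lt
      refine hfix ((hmk k).trans (le_of_eq ?_))
      ext x
      show x.1 (ρ (g ^ (m * k)) w₀) = 0 ↔ x.1 (ρ (g ^ 1) w₀) = 0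
      rw [pow_eq_pow_mod (m * k) hg, hk.2]
    have hli : LinearIndependent (ZMod q) (fun i : Fin r => ρ (g ^ (i : ℕ)) w₀) := by
      rw [Fintype.linearIndependent_iff]
      intro c hc i
      choose a ha ha' using fun j : {j : Fin r // j ≠ i} =>
        Set.not_subset.1 (hsep j.1 i j.1.2 i.2 (fun e => j.2 (Fin.ext e)))
      letI : CommRing K := { (inferInstance : Ring K) with mul_comm := fun x y => Subtype.ext (hKc _ x.2 _ y.2).eq }
      have hnot : ∀ s : Finset {j : Fin r // j ≠ i}, (∏ j ∈ s, a j) ∉ J i := by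
        intro s
        induction s using Finset.induction_on with
        | empty => rw [Finset.prod_empty]; exact hone _
        | @insert j s hj ih => rw [Finset.prod_insert hj]; exact fun e => (hJmul _ _ _ e).elim (ha' j) ih
      set x := ∏ j, a j with hx
      have hkill : ∀ j : Fin r, j ≠ i → x.1 (ρ (g ^ (j : ℕ)) w₀) = 0 := by
        intro j hj
        obtain ⟨z, hz⟩ := Finset.dvd_prod_of_mem a (Finset.mem_univ (⟨j, hj⟩ : {j : Fin r // j ≠ i}))
        rw [hx, hz, mul_comm]
        show z.1 ((a ⟨j, hj⟩).1 _) = 0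
        rw [show (a ⟨j, hj⟩).1 (ρ (g ^ (j : ℕ)) w₀) = 0 from ha ⟨j, hj⟩, map_zero]
      have h1 := congrArg x.1 hc
      rw [map_sum, map_zero, Finset.sum_eq_single i] at h1
      · rw [map_smul, smul_eq_zero] at h1
        exact h1.resolve_right (hnot Finset.univ)
      · intro j _ hj; rw [map_smul, hkill j hj, smul_zero]
      · intro hi; exact absurd (Finset.mem_univ i) hi
    have := hli.fintype_card_le_finrank
    rw [Fintype.card_fin, hdim] at this
    have := P.lt hn
    omega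
where
  lin_inj' (hinj : Function.Injective ρ) {a b : G} (e : lin ρ a = lin ρ b) : a = b :=
    hinj (LinearEquiv.toLinearMap_injective e)

/-- Order `r` elements lie in one subgroup of order `r` when they commute. -/
theorem prime_unique {p : ℕ} [hp : Fact p.Prime] (hpq : p ≠ q) [Nontrivial V]
    (hfix : ∀ x : G, x ^ p = 1 → x ≠ 1 → ∀ v : V, ρ x v = v → v = 0)
    {u w : G} (hu : u ^ p = 1) (hw : w ^ p = 1) (hu1 : u ≠ 1) (hc : Commute u w) : w ∈ zpowers u := by
  by_contra hmem
  have hgeom : ∀ y : G, y ≠ 1 → y ^ p = 1 → ∀ v : V, ∑ j ∈ Finset.range p, ρ (y ^ j) v = 0 := by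
    intro y hy hyp v
    refine hfix y hyp hy _ ?_
    have e : ∀ j, ρ y (ρ (y ^ j) v) = ρ (y ^ (j + 1)) v := fun j => by
      rw [pow_succ', map_mul, LinearEquiv.mul_apply]
    rw [map_sum]
    simp only [e]
    have h1 := Finset.sum_range_succ' (fun j => ρ (y ^ j) v) p
    have h2 := Finset.sum_range_succ (fun j => ρ (y ^ j) v) p
    rw [h2, hyp, pow_zero] at h1
    exact (add_right_cancel h1).symm
  obtain ⟨v, hv⟩ := exists_ne (0 : V)
  have ou : orderOf u = p := orderOf_eq_prime hu hu1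
  have h0 : ∑ i ∈ Finset.range p, ∑ j ∈ Finset.range p, ρ ((w * u ^ i) ^ j) v = 0 :=
    Finset.sum_eq_zero fun i _ => hgeom _ (fun e => hmem (by
      rw [eq_inv_of_mul_eq_one_left e]
      exact inv_mem (pow_mem (mem_zpowers u) i))) (by
      rw [(hc.symm.pow_right i).mul_pow, hw, ← pow_mul, mul_comm, pow_mul, hu, one_pow, one_mul]) v
  rw [Finset.sum_comm, Finset.sum_eq_single 0] at h0
  · simp only [pow_zero, map_one, LinearEquiv.coe_one, id_eq, Finset.sum_const, Finset.card_range] at h0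
    rw [← Nat.cast_smul_eq_nsmul (ZMod q), smul_eq_zero] at h0
    rcases h0 with h0 | h0
    · rw [ZMod.natCast_eq_zero_iff] at h0
      exact hpq ((Nat.prime_dvd_prime_iff_eq (Fact.out : q.Prime) hp.out).1 h0).symm
    · exact hv h0
  · intro j hj hj0
    have huj : u ^ j ≠ 1 := fun e => by
      have := Nat.le_of_dvd (Nat.pos_of_ne_zero hj0) (ou ▸ orderOf_dvd_of_pow_eq_one e)
      rw [Finset.mem_range] at hj
      omega
    have e : ∀ i, ρ ((w * u ^ i) ^ j) v = ρ (w ^ j) (ρ ((u ^ j) ^ i) v) := fun i => by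
      rw [(hc.symm.pow_right i).mul_pow, ← pow_mul, mul_comm i j, pow_mul, map_mul, LinearEquiv.mul_apply]
    simp only [e, ← map_sum]
    rw [hgeom _ huj (by rw [← pow_mul, mul_comm, pow_mul, hu, one_pow]), map_zero]
  · intro hn'
    exact absurd (Finset.mem_range.2 hp.out.pos) hn'

/-- A class two `p`-group modulo its centre, with cyclic commutators of order `p`: even rank. -/
theorem even_rank [Finite G] {p : ℕ} [Fact p.Prime] (z : G) (hzp : z ^ p = 1) :
    ∀ N : ℕ, ∀ M : Subgroup G, Nat.card M = N → (∀ x ∈ M, ∀ y ∈ M, ⁅x, y⁆ ∈ zpowers z) → (∀ x ∈ M, Commute x z) →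
      ∃ i : ℕ, Nat.card M = p ^ (2 * i) * Nat.card (M ⊓ centralizer (M : Set G) : Subgroup G) := by
  intro N
  induction N using Nat.strong_induction_on with
  | _ N ih =>
    intro M hMN hcomm hz
    by_cases hab : ∀ x ∈ M, ∀ y ∈ M, Commute x y
    · refine ⟨0, ?_⟩
      rw [mul_zero, pow_zero, one_mul,
        show M ⊓ centralizer (M : Set G) = M from inf_eq_left.2 fun x hx => mem_centralizer_iff.2 fun y hy => hab y hy x hx]
    push Not at hab
    obtain ⟨x, hx, y, hy, hxy⟩ := hab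
    set ζ := ⁅x, y⁆ with hζ
    have hζz : ζ ∈ zpowers z := hcomm x hx y hy
    have hζ1 : ζ ≠ 1 := fun e => hxy (commutatorElement_eq_one_iff_commute.1 e)
    have hzc : ∀ t ∈ zpowers z, ∀ w ∈ M, Commute t w := fun t ht w hw => by
      obtain ⟨i, rfl⟩ := mem_zpowers_iff.1 ht
      exact (hz w hw).symm.zpow_left i
    have hadd : ∀ a ∈ M, ∀ b ∈ M, ∀ c ∈ M, ⁅a * b, c⁆ = ⁅a, c⁆ * ⁅b, c⁆ := fun a ha b hb c hc => by
      have e : ⁅a * b, c⁆ = a * ⁅b, c⁆ * a⁻¹ * ⁅a, c⁆ := by simp only [commutatorElement_def]; group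
      rw [e, ← (hzc _ (hcomm b hb c hc) a ha).eq, mul_inv_cancel_right,
        (hzc _ (hcomm b hb c hc) _ (show ⁅a, c⁆ ∈ M from
          mul_mem (mul_mem (mul_mem ha hc) (inv_mem ha)) (inv_mem hc))).eq]
    let ψ : M →* zpowers z × zpowers z :=
      MonoidHom.mk' (fun w => (⟨⁅(w : G), x⁆, hcomm w w.2 x hx⟩, ⟨⁅(w : G), y⁆, hcomm w w.2 y hy⟩)) fun a b =>
        Prod.ext (Subtype.ext (hadd a a.2 b b.2 x hx)) (Subtype.ext (hadd a a.2 b b.2 y hy))
    have hz1 : z ≠ 1 := fun e => hζ1 (by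
      rw [e, zpowers_one_eq_bot, mem_bot] at hζz
      exact hζz)
    have oz : orderOf z = p := orderOf_eq_prime hzp hz1
    have hgen : ∀ t : zpowers z, ∃ i : ℤ, (⟨ζ, hζz⟩ : zpowers z) ^ i = t := by
      intro t
      have hc : Nat.card (zpowers z) = p := by rw [Nat.card_zpowers, oz]
      have := zpowers_eq_top_of_prime_card hc (g := (⟨ζ, hζz⟩ : zpowers z)) (fun e => hζ1 (congrArg Subtype.val e))
      exact mem_zpowers_iff.1 (this ▸ mem_top t)
    have hψs : Function.Surjective ψ := by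
      rintro ⟨s, t⟩
      obtain ⟨i, hi⟩ := hgen t
      obtain ⟨j, hj⟩ := hgen s⁻¹
      refine ⟨(⟨x, hx⟩ : M) ^ i * (⟨y, hy⟩ : M) ^ j, ?_⟩
      rw [map_mul, map_zpow, map_zpow]
      have ex : ψ ⟨x, hx⟩ = (1, ⟨ζ, hζz⟩) :=
        Prod.ext (Subtype.ext (commutatorElement_self x)) (Subtype.ext rfl)
      have ey : ψ ⟨y, hy⟩ = (⟨ζ, hζz⟩⁻¹, 1) :=
        Prod.ext (Subtype.ext (commutatorElement_inv x y).symm) (Subtype.ext (commutatorElement_self y))
      rw [ex, ey]
      refine Prod.ext ?_ ?_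
      · simp [inv_zpow, hj]
      · simp [hi]
    set C2 := ψ.ker.map M.subtype with hC2
    have hcard : Nat.card M = p ^ 2 * Nat.card C2 := by
      rw [← ψ.ker.card_mul_index, Subgroup.index_ker, MonoidHom.range_eq_top.2 hψs, Subgroup.card_top, Nat.card_prod,
        Nat.card_zpowers, oz, mul_comm, ← pow_two, hC2,
        Nat.card_congr (Subgroup.equivMapOfInjective ψ.ker M.subtype M.subtype_injective).toEquiv]
    have hC2M : C2 ≤ M := map_subtype_le _
    have hmem : ∀ w, w ∈ C2 ↔ w ∈ M ∧ Commute w x ∧ Commute w y := by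
      intro w
      constructor
      · rintro ⟨u, hu, rfl⟩
        refine ⟨u.2, ?_, ?_⟩
        · exact commutatorElement_eq_one_iff_commute.1 (congrArg Subtype.val (congrArg Prod.fst hu))
        · exact commutatorElement_eq_one_iff_commute.1 (congrArg Subtype.val (congrArg Prod.snd hu))
      · rintro ⟨hw, h1, h2⟩
        exact ⟨⟨w, hw⟩, Prod.ext (Subtype.ext (commutatorElement_eq_one_iff_commute.2 h1))
          (Subtype.ext (commutatorElement_eq_one_iff_commute.2 h2)), rfl⟩
    have hlt : Nat.card C2 < N := by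
      have h2 : 2 ≤ p ^ 2 := (Fact.out : p.Prime).two_le.trans (Nat.le_self_pow two_ne_zero p)
      have h3 : 0 < Nat.card C2 := Nat.card_pos
      rw [← hMN, hcard]
      nlinarith
    obtain ⟨i, hi⟩ := ih _ hlt C2 rfl (fun a ha b hb => hcomm a (hC2M ha) b (hC2M hb)) (fun a ha => hz a (hC2M ha))
    refine ⟨i + 1, ?_⟩
    have hcen : C2 ⊓ centralizer (C2 : Set G) = M ⊓ centralizer (M : Set G) := by
      refine le_antisymm ?_ ?_
      · rintro w ⟨hw, hwc⟩
        obtain ⟨hwM, hwx, hwy⟩ := (hmem w).1 hw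
        refine ⟨hwM, mem_centralizer_iff.2 fun u hu => ?_⟩
        obtain ⟨v, hv⟩ : ∃ v : M, v ∈ zpowers (⟨x, hx⟩ : M) ⊔ zpowers (⟨y, hy⟩ : M) ∧ ψ v = ψ ⟨u, hu⟩ := by
          obtain ⟨i1, hi1⟩ := hgen (ψ ⟨u, hu⟩).2
          obtain ⟨j1, hj1⟩ := hgen (ψ ⟨u, hu⟩).1⁻¹
          refine ⟨(⟨x, hx⟩ : M) ^ i1 * (⟨y, hy⟩ : M) ^ j1,
            mul_mem (mem_sup_left (zpow_mem (mem_zpowers _) i1)) (mem_sup_right (zpow_mem (mem_zpowers _) j1)), ?_⟩
          rw [map_mul, map_zpow, map_zpow,
            show ψ ⟨x, hx⟩ = (1, ⟨ζ, hζz⟩) from Prod.ext (Subtype.ext (commutatorElement_self x)) (Subtype.ext rfl),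
            show ψ ⟨y, hy⟩ = (⟨ζ, hζz⟩⁻¹, 1) from
              Prod.ext (Subtype.ext (commutatorElement_inv x y).symm) (Subtype.ext (commutatorElement_self y))]
          refine Prod.ext ?_ ?_
          · simp [inv_zpow, hj1]
          · simp [hi1]
        have hwv : Commute w (v : G) := by
          have : zpowers (⟨x, hx⟩ : M) ⊔ zpowers (⟨y, hy⟩ : M) ≤ (centralizer ({w} : Set G)).comap M.subtype := by
            refine sup_le (zpowers_le.2 ?_) (zpowers_le.2 ?_)
            · exact mem_centralizer_singleton_iff.2 hwx.symm.eq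
            · exact mem_centralizer_singleton_iff.2 hwy.symm.eq
          exact (mem_centralizer_singleton_iff.1 (this hv.1)).symm
        have hk : (v : G)⁻¹ * u ∈ C2 := ⟨v⁻¹ * ⟨u, hu⟩, by
          show v⁻¹ * _ ∈ ψ.ker
          rw [MonoidHom.mem_ker, map_mul, map_inv, hv.2, inv_mul_cancel], rfl⟩
        have h1 : Commute w ((v : G)⁻¹ * u) := (mem_centralizer_iff.1 hwc _ hk).symm
        have h2 := hwv.mul_right h1
        rw [mul_inv_cancel_left] at h2
        exact h2.symm
      · rintro w ⟨hw, hwc⟩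
        exact ⟨(hmem w).2 ⟨hw, (mem_centralizer_iff.1 hwc x hx).symm, (mem_centralizer_iff.1 hwc y hy).symm⟩,
          mem_centralizer_iff.2 fun u hu => mem_centralizer_iff.1 hwc u (hC2M hu)⟩
    rw [hcard, hi, hcen, ← mul_assoc, ← pow_add]
    ring_nf

end Cfsg.Lib.Recog.TransLin
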