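import Mathlib
import Cfsg.Agent.Lib.Recog.RegularLinearQuat
import Cfsg.Agent.Lib.Recog.TransLinearPrim
import Cfsg.Agent.Lib.TwoFus.CyclicSylow
import Cfsg.Agent.Lib.ZStar.UniqueInvolution

/-!
# Layers over a maximal abelian normal subgroup of a transitive linear group
-/

set_option autoImplicit false
set_option linter.style.haveILetI false
open Subgroup
open scoped commutatorElement

namespace Cfsg.Lib.Recog.TransLin

variable {G : Type*} [Group G] [Finite G]

/-- The setting: `A` maximal abelian normal, and the independence bound. -/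
structure Setting (A : Subgroup G) (e : ℕ) : Prop where
  normal : A.Normal
  cyclic : IsCyclic A
  comm : ∀ a ∈ A, ∀ b ∈ A, Commute a b
  max : ∀ B : Subgroup G, B.Normal → (∀ a ∈ B, ∀ b ∈ B, Commute a b) → A ≤ B → B = A
  indep : ∀ T : Finset G, (∀ x ∈ T, x ∈ centralizer (A : Set G)) →
    (∀ x ∈ T, ∀ y ∈ T, x ≠ y → ∃ u ∈ centralizer (A : Set G), (∀ z ∈ T, ⁅u, z⁆ ∈ A) ∧ ⁅u, x⁆ ≠ ⁅u, y⁆) →
    T.card ≤ e * e ∧ (T.card = e * e → ∀ k ∈ centralizer (A : Set G), (∀ z ∈ T, Commute k z) →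
      ∀ l ∈ centralizer (A : Set G), Commute k l)

variable {A : Subgroup G} {e : ℕ}

theorem Setting.bound (S : Setting A e) {Y : Subgroup G} (hY : Y ≤ centralizer (A : Set G))
    (hc : ∀ x ∈ Y, ∀ y ∈ Y, ⁅x, y⁆ ∈ A) :
    Nat.card Y ≤ e * e * Nat.card (Y ⊓ centralizer (Y : Set G) : Subgroup G) ∧
      (Nat.card Y = e * e * Nat.card (Y ⊓ centralizer (Y : Set G) : Subgroup G) →
        ∀ k ∈ centralizer (A : Set G), (∀ z ∈ Y, Commute k z) → ∀ l ∈ centralizer (A : Set G), Commute k l) := by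
  classical
  set Z := Y ⊓ centralizer (Y : Set G) with hZ
  haveI := Fintype.ofFinite (Y ⧸ Z.subgroupOf Y)
  let T : Finset G := Finset.univ.image fun c : Y ⧸ Z.subgroupOf Y => (c.out : G)
  have hinj : Function.Injective fun c : Y ⧸ Z.subgroupOf Y => (c.out : G) := fun c c' h => by
    rw [← QuotientGroup.out_eq' c, ← QuotientGroup.out_eq' c', show c.out = c'.out from Subtype.ext h]
  have hTY : ∀ x ∈ T, x ∈ Y := by
    intro x hx
    obtain ⟨c, -, rfl⟩ := Finset.mem_image.1 hx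
    exact c.out.2
  have hcard : Nat.card Y = T.card * Nat.card Z := by
    rw [Finset.card_image_of_injective _ hinj, Finset.card_univ, ← Nat.card_eq_fintype_card,
      ← Subgroup.index_eq_card, ← Nat.card_congr (Subgroup.subgroupOfEquivOfLe (show Z ≤ Y from inf_le_left)).toEquiv,
      mul_comm, Subgroup.card_mul_index]
  obtain ⟨hle, heq⟩ := S.indep T (fun x hx => hY (hTY x hx)) (by
    intro x hx y hy hne
    obtain ⟨c, -, rfl⟩ := Finset.mem_image.1 hx
    obtain ⟨c', -, rfl⟩ := Finset.mem_image.1 hy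
    by_contra hcon
    push Not at hcon
    have hcc : c ≠ c' := fun h => hne (by rw [h])
    refine hcc ?_
    rw [← QuotientGroup.out_eq' c, ← QuotientGroup.out_eq' c', QuotientGroup.eq, mem_subgroupOf]
    refine ⟨Y.mul_mem (Y.inv_mem c.out.2) c'.out.2, mem_centralizer_iff.2 fun u hu => ?_⟩
    have h1 := hcon u⁻¹ (inv_mem (hY hu)) fun z hz => hc _ (inv_mem hu) z (hTY z hz)
    rw [commutatorElement_def, commutatorElement_def, inv_inv, mul_assoc, mul_assoc, mul_assoc, mul_assoc,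
      mul_left_cancel_iff] at h1
    show u * ((c.out : G)⁻¹ * (c'.out : G)) = (c.out : G)⁻¹ * (c'.out : G) * u
    calc u * ((c.out : G)⁻¹ * (c'.out : G)) = (c.out : G)⁻¹ * ((c.out : G) * (u * (c.out : G)⁻¹)) * c'.out := by group
      _ = (c.out : G)⁻¹ * ((c'.out : G) * (u * (c'.out : G)⁻¹)) * c'.out := by rw [h1]
      _ = _ := by group)
  refine ⟨hcard ▸ Nat.mul_le_mul_right _ hle, fun h k hk hkY => heq ?_ k hk fun z hz => hkY z (hTY z hz)⟩
  rw [hcard] at h
  exact Nat.eq_of_mul_eq_mul_right Nat.card_pos h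

theorem Setting.center_layer (S : Setting A e) {M : Subgroup G} {p : ℕ} (L : RegLin.Layer A M p) :
    M ⊓ centralizer (M : Set G) = A := by
  haveI := L.normal
  refine S.max _ inferInstance (fun a ha b hb => ?_) (le_inf L.le fun a ha => ?_)
  · exact (mem_centralizer_iff.1 ha.2 b hb.1).symm
  · exact mem_centralizer_iff.2 fun w hw => L.cen w hw a ha

theorem Setting.layer (S : Setting A e) {M : Subgroup G} {p : ℕ} (L : RegLin.Layer A M p) :
    ∃ z ∈ A, z ^ p = 1 ∧ z ≠ 1 ∧ (∀ x ∈ M, ∀ y ∈ M, ⁅x, y⁆ ∈ zpowers z) ∧ p ∣ Nat.card A ∧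
      ∃ i : ℕ, 0 < i ∧ Nat.card M = p ^ (2 * i) * Nat.card A ∧ p ^ i ≤ e := by
  haveI := Fact.mk L.prime
  haveI := S.cyclic
  have hpow : ∀ x ∈ M, ∀ y ∈ M, ⁅x, y⁆ ^ p = 1 := by
    intro x hx y hy
    have hcA := L.comm x hx y hy
    have h1 : ∀ k : ℕ, ⁅x ^ k, y⁆ = ⁅x, y⁆ ^ k := by
      intro k
      induction k with
      | zero => rw [pow_zero, pow_zero, commutatorElement_one_left]
      | succ k ih =>
        have e' : ⁅x ^ k * x, y⁆ = x ^ k * ⁅x, y⁆ * (x ^ k)⁻¹ * ⁅x ^ k, y⁆ := by simp only [commutatorElement_def]; group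
        rw [pow_succ, e', (L.cen _ (pow_mem hx k) _ hcA).eq, mul_inv_cancel_right, ih, ← pow_succ']
    rw [← h1]
    exact commutatorElement_eq_one_iff_commute.2 (L.cen y hy _ (L.pow x hx)).symm
  obtain ⟨x, hx, y, hy, hnc⟩ := L.big
  have hz1 : ⁅x, y⁆ ≠ 1 := fun h => hnc (commutatorElement_eq_one_iff_commute.1 h)
  have hzA := L.comm x hx y hy
  have oz : orderOf ⁅x, y⁆ = p := orderOf_eq_prime (hpow x hx y hy) hz1
  have hall : ∀ u ∈ M, ∀ v ∈ M, ⁅u, v⁆ ∈ zpowers ⁅x, y⁆ := by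
    intro u hu v hv
    by_cases h1 : ⁅u, v⁆ = 1
    · rw [h1]; exact one_mem _
    have ow : orderOf ⁅u, v⁆ = p := orderOf_eq_prime (hpow u hu v hv) h1
    have he : zpowers (⟨⁅u, v⁆, L.comm u hu v hv⟩ : A) = zpowers ⟨⁅x, y⁆, hzA⟩ := by
      refine Cfsg.Lib.TwoFus.eq_of_card_eq_cyclic ?_
      rw [Nat.card_zpowers, Nat.card_zpowers, Subgroup.orderOf_mk, Subgroup.orderOf_mk, ow, oz]
    have h2 := congrArg (Subgroup.map A.subtype) he
    rw [MonoidHom.map_zpowers, MonoidHom.map_zpowers] at h2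
    exact h2 ▸ mem_zpowers ⁅u, v⁆
  refine ⟨⁅x, y⁆, hzA, hpow x hx y hy, hz1, hall, oz ▸ Subgroup.orderOf_dvd_natCard A hzA, ?_⟩
  obtain ⟨i, hi⟩ := even_rank ⁅x, y⁆ (hpow x hx y hy) _ M rfl hall (fun w hw => L.cen w hw _ hzA)
  rw [S.center_layer L] at hi
  have hi0 : 0 < i := by
    refine Nat.pos_of_ne_zero fun h => ?_
    rw [h, mul_zero, pow_zero, one_mul] at hi
    have := Subgroup.eq_of_le_of_card_ge L.le hi.le
    exact hnc (L.cen x hx y (this ▸ hy))
  refine ⟨i, hi0, hi, ?_⟩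
  have hb := (S.bound (fun w hw => mem_centralizer_iff.2 fun a ha => (L.cen w hw a ha).symm) L.comm).1
  rw [S.center_layer L, hi, mul_comm 2 i, pow_mul, pow_two] at hb
  exact Nat.mul_self_le_mul_self_iff.1 (Nat.le_of_mul_le_mul_right hb Nat.card_pos)

/-- A full layer has centralizer `A`. -/
theorem Setting.full (S : Setting A e) {M : Subgroup G} {p : ℕ} (L : RegLin.Layer A M p)
    (hM : Nat.card M = e * e * Nat.card A) (hC : ∀ g : G, g ∈ centralizer (A : Set G))
    {g : G} (hg : ∀ w ∈ M, Commute g w) : g ∈ A := by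
  haveI := L.normal
  have hcent := (S.bound (fun w hw => mem_centralizer_iff.2 fun a ha => (L.cen w hw a ha).symm) L.comm).2
    (by rw [S.center_layer L]; exact hM)
  have := S.max (centralizer (M : Set G)) inferInstance (fun k hk l hl =>
    hcent k (hC k) (fun w hw => (mem_centralizer_iff.1 hk w hw).symm) l (hC l))
    (fun a ha => mem_centralizer_iff.2 fun w hw => L.cen w hw a ha)
  rw [← this]
  exact mem_centralizer_iff.2 fun w hw => (hg w hw).symm

/-- Every point off the fixed one has a free orbit. -/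
theorem sq_dvd {X : Type*} [Finite X] {r : ℕ} [hr : Fact r.Prime] (σ : Equiv.Perm X) (hσ : orderOf σ = r * r)
    (x₀ : X) (h0 : σ x₀ = x₀) (huniq : ∀ x, (σ ^ r) x = x → x = x₀) : r * r ∣ Nat.card X - 1 := by
  classical
  haveI := Fintype.ofFinite X
  let X' := {x : X // x ≠ x₀}
  have hfix : ∀ s ∈ zpowers σ, s x₀ = x₀ := by
    have : zpowers σ ≤ MulAction.stabilizer (Equiv.Perm X) x₀ := zpowers_le.2 (MulAction.mem_stabilizer_iff.2 h0)
    exact fun s hs => MulAction.mem_stabilizer_iff.1 (this hs)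
  letI : MulAction (zpowers σ) X' :=
    { smul := fun s x => ⟨(s : Equiv.Perm X) x.1, fun e => x.2 ((s : Equiv.Perm X).injective (e.trans (hfix s s.2).symm))⟩
      one_smul := fun x => Subtype.ext rfl
      mul_smul := fun s t x => Subtype.ext rfl }
  have hstab : ∀ x : X', MulAction.stabilizer (zpowers σ) x = ⊥ := by
    intro x
    by_contra hne
    have hd : r ∣ Nat.card (MulAction.stabilizer (zpowers σ) x) := by
      have h1 := Subgroup.card_subgroup_dvd_card (MulAction.stabilizer (zpowers σ) x)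
      rw [Nat.card_zpowers, hσ, ← pow_two] at h1
      obtain ⟨k, -, hk⟩ := (Nat.dvd_prime_pow hr.out).1 h1
      rw [hk]
      exact dvd_pow_self r fun e => hne (Subgroup.card_eq_one.1 (by rw [hk, e, pow_zero]))
    obtain ⟨⟨t, ht⟩, hot⟩ := exists_prime_orderOf_dvd_card' r hd
    rw [Subgroup.orderOf_mk] at hot
    have he : zpowers t = zpowers (⟨σ ^ r, pow_mem (mem_zpowers σ) r⟩ : zpowers σ) := by
      refine Cfsg.Lib.TwoFus.eq_of_card_eq_cyclic ?_
      rw [Nat.card_zpowers, Nat.card_zpowers, hot, Subgroup.orderOf_mk,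
        orderOf_pow_of_dvd hr.out.ne_zero (hσ ▸ dvd_mul_left r r), hσ, Nat.mul_div_cancel _ hr.out.pos]
    have hmem : (⟨σ ^ r, pow_mem (mem_zpowers σ) r⟩ : zpowers σ) ∈ MulAction.stabilizer (zpowers σ) x :=
      (zpowers_le.2 ht) (he.symm ▸ mem_zpowers _)
    exact x.2 (huniq x.1 (congrArg Subtype.val (MulAction.mem_stabilizer_iff.1 hmem)))
  have hX' : Nat.card X' = Nat.card X - 1 := by
    rw [Nat.card_eq_fintype_card, Fintype.card_subtype_compl, Fintype.card_subtype_eq, Nat.card_eq_fintype_card]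
  rw [← hX', Nat.card_congr (MulAction.selfEquivSigmaOrbitsQuotientStabilizer (zpowers σ) X')]
  haveI := Fintype.ofFinite (MulAction.orbitRel.Quotient (zpowers σ) X')
  rw [Nat.card_sigma]
  refine Finset.dvd_sum fun ω _ => ?_
  rw [← Subgroup.index_eq_card, hstab, Subgroup.index_bot, Nat.card_zpowers, hσ]

variable {q : ℕ} [Fact q.Prime] {V : Type*} [AddCommGroup V] [Module (ZMod q) V] [Finite V] [Nontrivial V]
  {ρ : G →* (V ≃ₗ[ZMod q] V)}

/-- The main step for an element of primitive prime order. -/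
theorem Setting.prim_step [Group.IsSolvable G] (S : Setting A e) (hinj : Function.Injective ρ) {d n r : ℕ} (hd : 0 < d) (he : 2 ≤ e)
    (hdim : Module.finrank (ZMod q) V = n) (hde : n = d * e) (P : Prim q n r) (hrA : ¬ r ∣ Nat.card A)
    {g : G} (hgC : g ∈ centralizer (A : Set G)) (hg : g ^ r = 1) (hg1 : g ≠ 1) :
    ∃ (M : Subgroup G) (i : ℕ), RegLin.Layer A M 2 ∧ d = 1 ∧ 0 < i ∧ e = 2 ^ i ∧ r = e + 1 ∧
      Nat.card M = e * e * Nat.card A ∧ (∀ x ∈ M, g * x * g⁻¹ * x⁻¹ ∈ A → x ∈ A) := by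
  classical
  haveI := Fact.mk P.prime
  haveI := S.normal
  have hn : 0 < n := by rw [hde]; exact Nat.mul_pos hd (by omega)
  have hnr := P.lt hn
  have hen : e ≤ n := by rw [hde]; exact Nat.le_mul_of_pos_left e hd
  have hgA : g ∉ A := fun h => hrA ((orderOf_eq_prime hg hg1) ▸ Subgroup.orderOf_dvd_natCard A h)
  set C := centralizer (A : Set G) with hC
  -- a layer that `g` does not centralize
  obtain ⟨M, p, L, x0, hx0, hgx0⟩ :
      ∃ (M : Subgroup G) (p : ℕ), RegLin.Layer A M p ∧ ∃ x ∈ M, ¬ Commute g x := by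
    by_contra hcon
    push Not at hcon
    let N : Subgroup G :=
      { carrier := {c | c ∈ C ∧ ∀ (M : Subgroup G) (p : ℕ), RegLin.Layer A M p → ∀ x ∈ M, Commute c x}
        one_mem' := ⟨one_mem C, fun _ _ _ x _ => Commute.one_left x⟩
        mul_mem' := fun ha hb => ⟨mul_mem ha.1 hb.1, fun M p L x hx => (ha.2 M p L x hx).mul_left (hb.2 M p L x hx)⟩
        inv_mem' := fun ha => ⟨inv_mem ha.1, fun M p L x hx => (ha.2 M p L x hx).inv_left⟩ }
    haveI : N.Normal := ⟨fun c hc s => ⟨(inferInstance : C.Normal).conj_mem c hc.1 s, fun M p L x hx => by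
      have h1 := hc.2 M p L _ (L.normal.conj_mem x hx s⁻¹)
      have h2 := h1.map (MulAut.conj s).toMonoidHom
      simpa [MulAut.conj_apply, mul_assoc] using h2⟩⟩
    have hAN : A ≤ N := fun a ha => ⟨mem_centralizer_iff.2 fun b hb => S.comm b hb a ha,
      fun M p L x hx => (L.cen x hx a ha).symm⟩
    have hgN : g ∈ N := ⟨hgC, hcon⟩
    obtain ⟨M, p, L, hMN⟩ := RegLin.exists_layer A N S.comm S.max hAN (fun h => hgA (h ▸ hgN))
      (fun x hx a ha => ((mem_centralizer_iff.1 hx.1) a ha).symm)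
    obtain ⟨x, hx, y, hy, hnc⟩ := L.big
    exact hnc ((hMN hx).2 M p L y hy)
  haveI := L.normal
  haveI := Fact.mk L.prime
  obtain ⟨z, hzA, hzp, hz1, hzc, -, iM, hiM, hMcard, hpM⟩ := S.layer L
  have hpe : p ≤ e := (Nat.le_self_pow hiM.ne' p).trans hpM
  have hpr : p ≠ r := by omega
  -- a minimal invariant subgroup not centralized
  obtain ⟨Y, ⟨hAY, hYM, hYg, y0, hy0, hgy0⟩, hYmin⟩ :=
    (Set.toFinite {Y : Subgroup G | A ≤ Y ∧ Y ≤ M ∧ (∀ y ∈ Y, g * y * g⁻¹ ∈ Y) ∧ ∃ y ∈ Y, ¬ Commute g y}).exists_minimal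
      ⟨M, L.le, le_rfl, fun y hy => L.normal.conj_mem y hy g, x0, hx0, hgx0⟩
  have hsub : ∀ U : Subgroup G, A ≤ U → U ≤ Y → (∀ u ∈ U, g * u * g⁻¹ ∈ U) → U ≠ Y → ∀ u ∈ U, Commute g u := by
    intro U hAU hUY hUg hne u hu
    by_contra hnc
    exact hne (le_antisymm hUY (hYmin ⟨hAU, hUY.trans hYM, hUg, u, hu, hnc⟩ hUY))
  have hYg' : ∀ y ∈ Y, g⁻¹ * y * g ∈ Y := by
    intro y hy
    have hk : ∀ k : ℕ, g ^ k * y * (g ^ k)⁻¹ ∈ Y := by
      intro k
      induction k with
      | zero => simpa using hy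
      | succ k ih => have := hYg _ ih; simpa [pow_succ', mul_assoc] using this
    have h1 := hk (r - 1)
    have h2 : g ^ (r - 1) = g⁻¹ := by
      rw [eq_inv_iff_mul_eq_one, ← pow_succ, Nat.sub_add_cancel P.prime.one_lt.le, hg]
    rwa [h2, inv_inv] at h1
  set Z := Y ⊓ centralizer (Y : Set G) with hZdef
  have hAZ : A ≤ Z := fun a ha => ⟨hAY ha, mem_centralizer_iff.2 fun w hw => L.cen w (hYM hw) a ha⟩
  have hZg : ∀ c ∈ Z, Commute g c := by
    refine centralize_abelian hinj hn hdim P hg hg1 Z (fun a ha b hb => (mem_centralizer_iff.1 ha.2 b hb.1).symm) ?_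
    intro c hc
    refine ⟨hYg c hc.1, mem_centralizer_iff.2 fun w hw => ?_⟩
    have h1 : Commute c (g⁻¹ * w * g) := (mem_centralizer_iff.1 hc.2 _ (hYg' w hw)).symm
    have h2 := h1.map (MulAut.conj g).toMonoidHom
    simp [MulAut.conj_apply, mul_assoc] at h2
    simpa [mul_assoc] using h2.symm.eq
  have hδ : ∀ x ∈ Y, Commute g (g * x * g⁻¹ * x⁻¹) → Commute g x := by
    intro x hx hc
    set δ := g * x * g⁻¹ * x⁻¹ with hδdef
    have hit : ∀ k : ℕ, g ^ k * x * (g ^ k)⁻¹ = δ ^ k * x := by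
      intro k
      induction k with
      | zero => simp
      | succ k ih =>
        calc g ^ (k + 1) * x * (g ^ (k + 1))⁻¹ = g * (g ^ k * x * (g ^ k)⁻¹) * g⁻¹ := by rw [pow_succ']; group
          _ = (g * δ ^ k) * (x * g⁻¹) := by rw [ih]; group
          _ = δ ^ k * (g * x * g⁻¹) := by rw [(hc.pow_right k).eq]; group
          _ = δ ^ (k + 1) * x := by rw [pow_succ, mul_assoc (δ ^ k), hδdef]; group
    have h1 := hit r
    rw [hg, one_mul, inv_one, mul_one, right_eq_mul] at h1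
    have hδM : δ ∈ M := mul_mem (L.normal.conj_mem x (hYM hx) g) (inv_mem (hYM hx))
    have h2 : δ ^ p = 1 := by
      by_contra hne
      have h3 : (δ ^ p) ^ r = 1 := by rw [← pow_mul, mul_comm, pow_mul, h1, one_pow]
      exact hrA ((orderOf_eq_prime h3 hne) ▸ Subgroup.orderOf_dvd_natCard A (L.pow δ hδM))
    have h4 : δ = 1 := by
      rw [← orderOf_eq_one_iff]
      exact Nat.eq_one_of_dvd_coprimes ((Nat.coprime_primes P.prime L.prime).2 hpr.symm)
        (orderOf_dvd_of_pow_eq_one h1) (orderOf_dvd_of_pow_eq_one h2)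
    exact mul_inv_eq_iff_eq_mul.1 (mul_inv_eq_one.1 h4)
  have hcomA : ∀ a ∈ Y, ∀ b ∈ Y, ⁅a, b⁆ ∈ A := fun a ha b hb => L.comm a (hYM ha) b (hYM hb)
  haveI hZn : (Z.subgroupOf Y).Normal := ⟨fun c hc w => by
    rw [mem_subgroupOf] at hc ⊢
    have : Commute (w : G) c := mem_centralizer_iff.1 hc.2 w w.2
    simpa [this.eq] using hc⟩
  let mk : Y →* Y ⧸ Z.subgroupOf Y := QuotientGroup.mk' _
  have hmk1 : ∀ w : Y, mk w = 1 ↔ (w : G) ∈ Z := fun w => (QuotientGroup.eq_one_iff w).trans mem_subgroupOf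
  have hQc : ∀ a b : Y, Commute (mk a) (mk b) := fun a b => by
    rw [← commutatorElement_eq_one_iff_commute, ← map_commutatorElement, hmk1]
    exact hAZ (hcomA a a.2 b b.2)
  let cg : Y →* Y :=
    MonoidHom.mk' (fun w => ⟨g * w * g⁻¹, hYg w w.2⟩) fun a b => Subtype.ext (by
      show g * ((a : G) * b) * g⁻¹ = (g * a * g⁻¹) * (g * b * g⁻¹)
      group)
  let τ : Y →* Y ⧸ Z.subgroupOf Y :=
    MonoidHom.mk' (fun w => mk (cg w) * (mk w)⁻¹) fun a b => by
      have h := (hQc (cg b) a).inv_right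
      simp only [map_mul, mul_inv_rev]
      rw [((hQc b a).inv_left.inv_right).eq]
      simp only [mul_assoc]
      rw [← mul_assoc (mk (cg b)), h.eq, mul_assoc]
  have hτval : ∀ w : Y, τ w = 1 ↔ g * w * g⁻¹ * (w : G)⁻¹ ∈ Z := fun w => by
    show mk (cg w) * (mk w)⁻¹ = 1 ↔ _
    rw [← map_inv, ← map_mul, hmk1]
    rfl
  have hZker : Z.subgroupOf Y ≤ τ.ker := fun w hw => by
    rw [MonoidHom.mem_ker, hτval, (hZg w hw).eq, mul_inv_cancel_right, mul_inv_cancel]
    exact one_mem Z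
  set X := τ.ker.map Y.subtype with hX
  have hXne : X ≠ Y := by
    intro hXY
    refine hgy0 (hδ y0 hy0 (hZg _ ?_))
    obtain ⟨w, hw, rfl⟩ : y0 ∈ X := hXY.symm ▸ hy0
    exact (hτval w).1 hw
  have hXfix : ∀ w ∈ X, Commute g w := by
    refine hsub X (fun a ha => ⟨⟨a, hAY ha⟩, hZker (mem_subgroupOf.2 (hAZ ha)), rfl⟩) (map_subtype_le _) ?_ hXne
    rintro _ ⟨w, hw, rfl⟩
    refine ⟨cg w, (hτval _).2 ?_, rfl⟩
    have h1 := (hτval w).1 hw
    show g * (g * w * g⁻¹) * g⁻¹ * (g * w * g⁻¹)⁻¹ ∈ Z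
    rw [show g * (g * (w : G) * g⁻¹) * g⁻¹ * (g * w * g⁻¹)⁻¹ = g * (g * w * g⁻¹ * (w : G)⁻¹) * g⁻¹ by group,
      (hZg _ h1).eq, mul_inv_cancel_right]
    exact h1
  have hker : τ.ker = Z.subgroupOf Y := by
    refine le_antisymm (fun w hw => ?_) hZker
    by_contra hwZ
    set U := (τ.range.comap mk).map Y.subtype with hU
    have hUne : U ≠ Y := by
      intro hUY
      have hr' : τ.range = ⊤ := eq_top_iff.2 fun c _ => by
        obtain ⟨w', rfl⟩ := QuotientGroup.mk'_surjective _ c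
        obtain ⟨w'', hw'', e'⟩ : (w' : G) ∈ U := hUY.symm ▸ w'.2
        rw [← show w'' = w' from Subtype.ext e']
        exact hw''
      have h1 : (Z.subgroupOf Y).index = τ.ker.index := by
        rw [Subgroup.index_ker, hr', Subgroup.card_top, Subgroup.index_eq_card]
      have h2 := Subgroup.card_mul_index (Z.subgroupOf Y)
      rw [← τ.ker.card_mul_index, h1] at h2
      have h3 := Nat.eq_of_mul_eq_mul_right (Nat.pos_of_ne_zero Subgroup.index_ne_zero_of_finite) h2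
      exact hwZ ((Subgroup.eq_of_le_of_card_ge hZker h3.ge).symm ▸ hw)
    have hUfix : ∀ u ∈ U, Commute g u := by
      refine hsub U (fun a ha => ⟨⟨a, hAY ha⟩, ?_, rfl⟩) (map_subtype_le _) ?_ hUne
      · show mk _ ∈ τ.range
        rw [(hmk1 ⟨a, hAY ha⟩).2 (hAZ ha)]; exact one_mem _
      · rintro _ ⟨u, hu, rfl⟩
        obtain ⟨s, hs⟩ := hu
        refine ⟨cg u, ⟨cg s, ?_⟩, rfl⟩
        have h1 : mk ((cg s * s⁻¹)⁻¹ * u) = 1 := by
          rw [map_mul, map_inv, map_mul, map_inv, ← hs]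
          exact inv_mul_cancel _
        rw [hmk1] at h1
        show mk (cg (cg s)) * (mk (cg s))⁻¹ = mk (cg u)
        rw [← map_inv, ← map_mul, ← map_inv cg, ← map_mul cg, ← inv_mul_eq_one, ← map_inv mk, ← map_mul mk,
          ← map_inv cg, ← map_mul cg, hmk1]
        show g * ((cg s * s⁻¹)⁻¹ * u : Y) * g⁻¹ ∈ Z
        rw [(hZg _ h1).eq, mul_inv_cancel_right]
        exact h1
    refine hgy0 (hδ y0 hy0 (hUfix _ ⟨cg ⟨y0, hy0⟩ * (⟨y0, hy0⟩ : Y)⁻¹, ⟨⟨y0, hy0⟩, ?_⟩, rfl⟩))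
    show mk (cg _) * (mk _)⁻¹ = mk _
    rw [map_mul, map_inv]
  -- counting
  obtain ⟨i, hi⟩ := even_rank z hzp _ Y rfl (fun a ha b hb => hzc a (hYM ha) b (hYM hb))
    (fun w hw => L.cen w (hYM hw) z hzA)
  rw [← hZdef] at hi
  have hZcard : Nat.card (Z.subgroupOf Y) = Nat.card Z :=
    Nat.card_congr (Subgroup.subgroupOfEquivOfLe (show Z ≤ Y from inf_le_left)).toEquiv
  have hQcard : Nat.card (Y ⧸ Z.subgroupOf Y) = p ^ (2 * i) := by
    have h1 := (Z.subgroupOf Y).card_mul_index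
    rw [hZcard, hi, Subgroup.index_eq_card, mul_comm (p ^ (2 * i))] at h1
    exact Nat.eq_of_mul_eq_mul_left Nat.card_pos h1
  let cq : Y ⧸ Z.subgroupOf Y →* Y ⧸ Z.subgroupOf Y := QuotientGroup.map _ _ cg fun w hw => by
    show g * (w : G) * g⁻¹ ∈ Z
    rw [(hZg w hw).eq, mul_inv_cancel_right]
    exact hw
  have hcq : ∀ w : Y, cq (mk w) = mk (cg w) := fun w => rfl
  have hfix : ∀ c, cq c = c → c = 1 := by
    intro c hc
    obtain ⟨w, rfl⟩ := QuotientGroup.mk'_surjective _ c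
    rw [hmk1, ← mem_subgroupOf, ← hker, MonoidHom.mem_ker]
    show mk (cg w) * (mk w)⁻¹ = 1
    rw [← hcq]
    exact mul_inv_eq_one.2 hc
  have hbij : Function.Bijective cq := Finite.injective_iff_bijective.1 ((injective_iff_map_eq_one cq).2 fun c hc => by
    obtain ⟨w, rfl⟩ := QuotientGroup.mk'_surjective _ c
    rw [hcq, hmk1] at hc
    rw [hmk1]
    have h := hc
    have h2 : g⁻¹ * (g * w * g⁻¹) * g ∈ Z := by
      have h3 : Commute g⁻¹ (g * (w : G) * g⁻¹) := (hZg _ h).inv_left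
      rw [h3.eq, inv_mul_cancel_right]
      exact h
    simpa [mul_assoc] using h2)
  let σ : Equiv.Perm (Y ⧸ Z.subgroupOf Y) := Equiv.ofBijective cq hbij
  have hσr : σ ^ r = 1 := by
    have hk : ∀ (k : ℕ) (w : Y), ((σ ^ k) (mk w)) = mk (((⇑cg)^[k]) w) := by
      intro k
      induction k with
      | zero => intro w; rfl
      | succ k ih => intro w; rw [pow_succ', Equiv.Perm.mul_apply, ih, Function.iterate_succ_apply']; rfl
    have hk2 : ∀ (k : ℕ) (w : Y), (((⇑cg)^[k]) w : G) = g ^ k * w * (g ^ k)⁻¹ := by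
      intro k
      induction k with
      | zero => intro w; simp
      | succ k ih =>
        intro w
        rw [Function.iterate_succ_apply']
        show g * _ * g⁻¹ = _
        rw [ih, pow_succ']; group
    refine Equiv.ext fun c => ?_
    obtain ⟨w, rfl⟩ := QuotientGroup.mk'_surjective _ c
    rw [hk, show ((⇑cg)^[r]) w = w from Subtype.ext (by rw [hk2, hg, inv_one, one_mul, mul_one])]
    rfl
  have hdvd := dvd_card_sub_one σ hσr 1 (map_one cq) hfix
  rw [hQcard] at hdvd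
  have hb := (S.bound (fun w hw => mem_centralizer_iff.2 fun a ha => (L.cen w (hYM hw) a ha).symm) hcomA).1
  rw [← hZdef, hi, mul_comm 2 i, pow_mul, pow_two] at hb
  have hpi : p ^ i ≤ e := Nat.mul_self_le_mul_self_iff.1 (Nat.le_of_mul_le_mul_right hb Nat.card_pos)
  have hi0 : 0 < i := by
    refine Nat.pos_of_ne_zero fun h => ?_
    rw [h, mul_zero, pow_zero, one_mul] at hi
    exact hgy0 (hZg y0 (by rw [show Z = Y from Subgroup.eq_of_le_of_card_ge inf_le_left hi.le]; exact hy0))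
  have hp2 := L.prime.two_le
  have hpi2 : 2 ≤ p ^ i := hp2.trans (Nat.le_self_pow hi0.ne' p)
  have hr1 : r ≤ p ^ i + 1 := by
    rw [mul_comm 2 i, pow_mul, show (p ^ i) ^ 2 - 1 = (p ^ i + 1) * (p ^ i - 1) by
      rw [← Nat.sq_sub_sq, one_pow]] at hdvd
    rcases P.prime.dvd_mul.1 hdvd with h | h
    · exact Nat.le_of_dvd (by omega) h
    · have := Nat.le_of_dvd (by omega) h; omega
  have hne : n = e := by omega
  have hd1 : d = 1 := by
    rw [hne] at hde
    exact (Nat.eq_of_mul_eq_mul_right (show 0 < e by omega) (by rw [one_mul]; exact hde)).symm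
  have hpe' : p ^ i = e := by omega
  have hre : r = e + 1 := by omega
  have hp : p = 2 := by
    rcases L.prime.eq_two_or_odd' with h | h
    · exact h
    exfalso
    have hodd : Odd e := hpe' ▸ h.pow
    rcases P.prime.eq_two_or_odd' with h2 | h2
    · omega
    · rw [hre, Nat.odd_add_one] at h2; exact h2 hodd
  subst hp
  -- `Y` is the whole layer
  have hAc : Nat.card A ≤ Nat.card Z := Subgroup.card_le_of_le hAZ
  have hYc : Nat.card Y ≤ Nat.card M := Subgroup.card_le_of_le hYM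
  have hMe : Nat.card M ≤ e * e * Nat.card A := by
    rw [hMcard, mul_comm 2 iM, pow_mul, pow_two]
    exact Nat.mul_le_mul_right _ (Nat.mul_self_le_mul_self hpM)
  have hYe : Nat.card Y = e * e * Nat.card Z := by rw [hi, mul_comm 2 i, pow_mul, pow_two, hpe']
  have hZA : Nat.card Z = Nat.card A := by
    refine le_antisymm ?_ hAc
    refine Nat.le_of_mul_le_mul_left (show e * e * Nat.card Z ≤ e * e * Nat.card A by omega) ?_
    exact Nat.mul_pos (by omega) (by omega)
  rw [hZA] at hYe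
  have hYMeq : Y = M := Subgroup.eq_of_le_of_card_ge hYM (by omega)
  have hZAeq : A = Z := Subgroup.eq_of_le_of_card_ge hAZ hZA.le
  refine ⟨M, i, L, hd1, hi0, hpe'.symm, hre, by omega, fun x hx hxA => ?_⟩
  have hxY : x ∈ Y := hYMeq.symm ▸ hx
  have h1 : (⟨x, hxY⟩ : Y) ∈ τ.ker := (hτval _).2 (hZAeq ▸ hxA)
  rw [hker, mem_subgroupOf] at h1
  exact hZAeq.symm ▸ h1

end Cfsg.Lib.Recog.TransLin
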