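import Mathlib
import Cfsg.Agent.Lib.Recog.RegularLinearSpan

/-!
# Groups transitive on the nonzero vectors: the field spanned by an abelian normal subgroup
-/

set_option autoImplicit false
set_option linter.style.haveILetI false
open Subgroup
open scoped commutatorElement

namespace Cfsg.Lib.Recog.TransLin

open RegLin (lin)

universe u w

variable {q : ℕ} [Fact q.Prime] {V : Type u} [AddCommGroup V] [Module (ZMod q) V]
  {G : Type w} [Group G] {ρ : G →* (V ≃ₗ[ZMod q] V)}

theorem lin_inj (hinj : Function.Injective ρ) : Function.Injective (lin ρ) := fun _ _ e =>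
  hinj (LinearEquiv.toLinearMap_injective e)

theorem card_dvd [Finite V] [Finite G] [Nontrivial V] (htr : ∀ v w : V, v ≠ 0 → w ≠ 0 → ∃ g : G, ρ g v = w) :
    Nat.card V - 1 ∣ Nat.card G := by
  classical
  letI : MulAction G V := MulAction.compHom V ρ
  obtain ⟨v, hv⟩ := exists_ne (0 : V)
  have ho : MulAction.orbit G v = ({0} : Set V)ᶜ := by
    ext x
    refine ⟨?_, fun hx => ?_⟩
    · rintro ⟨g, rfl⟩
      exact fun h => hv ((ρ g).map_eq_zero_iff.1 h)
    · obtain ⟨g, hg⟩ := htr v x hv hx
      exact ⟨g, hg⟩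
  have := Subgroup.index_dvd_card (MulAction.stabilizer G v)
  rwa [MulAction.index_stabilizer, ho, Set.ncard_compl, Set.ncard_singleton] at this

set_option maxHeartbeats 1000000 in
/-- The facts on an abelian normal subgroup that come from the field it spans. -/
theorem span_props [Finite V] [Finite G] [Nontrivial V] (hinj : Function.Injective ρ)
    (htr : ∀ v w : V, v ≠ 0 → w ≠ 0 → ∃ g : G, ρ g v = w) (A : Subgroup G) [A.Normal]
    (hA : ∀ a ∈ A, ∀ b ∈ A, Commute a b) :
    ∃ d e : ℕ, 0 < d ∧ 0 < e ∧ Nat.card V = (q ^ d) ^ e ∧ IsCyclic A ∧ Nat.card A ∣ q ^ d - 1 ∧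
      (centralizer (A : Set G)).index ∣ d ∧
      (∃ (Γ : Type u) (_ : Group Γ) (_ : IsCyclic Γ) (φ : G →* Γ), φ.ker = centralizer (A : Set G)) ∧
      (∀ T : Finset G, (∀ x ∈ T, x ∈ centralizer (A : Set G)) →
        (∀ x ∈ T, ∀ y ∈ T, x ≠ y →
          ∃ u ∈ centralizer (A : Set G), (∀ z ∈ T, ⁅u, z⁆ ∈ A) ∧ ⁅u, x⁆ ≠ ⁅u, y⁆) →
        T.card ≤ e * e ∧ (T.card = e * e → ∀ k ∈ centralizer (A : Set G), (∀ z ∈ T, Commute k z) →
          ∀ l ∈ centralizer (A : Set G), Commute k l)) ∧
      (e = 1 → (∃ (F : Type) (_ : Field F) (_ : Fintype F) (ψ : V ≃+ F),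
          ∀ g : G, ∃ (a : F) (σ : F ≃+* F), ∀ v : V, ψ (ρ g v) = a * σ (ψ v)) ∧
        ∀ k ∈ centralizer (A : Set G), ∀ l ∈ centralizer (A : Set G), Commute k l) := by
  classical
  haveI : Finite (Module.End (ZMod q) V) :=
    Finite.of_injective (fun f : Module.End (ZMod q) V => (f : V → V)) DFunLike.coe_injective
  set S : Set (Module.End (ZMod q) V) := lin ρ '' (A : Set G) with hS
  set E := Algebra.adjoin (ZMod q) S with hE
  have hSc : ∀ x ∈ S, ∀ y ∈ S, Commute x y := by
    rintro _ ⟨a, ha, rfl⟩ _ ⟨b, hb, rfl⟩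
    exact (hA a ha b hb).map (lin ρ)
  have hEc : ∀ x ∈ E, ∀ y ∈ E, Commute x y := fun x hx y hy => by
    refine Algebra.commute_of_mem_adjoin_of_forall_mem_commute hy fun s hs => ?_
    exact (Algebra.commute_of_mem_adjoin_of_forall_mem_commute hx fun t ht => hSc s hs t ht).symm
  have hconj : ∀ g : G, ∀ x ∈ E, lin ρ g * x * lin ρ g⁻¹ ∈ E := by
    intro g x hx
    induction hx using Algebra.adjoin_induction with
    | mem x hx =>
      obtain ⟨a, ha, rfl⟩ := hx
      rw [← map_mul, ← map_mul]
      exact Algebra.subset_adjoin ⟨_, (inferInstance : A.Normal).conj_mem a ha g, rfl⟩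
    | algebraMap r =>
      rw [← Algebra.commutes, mul_assoc, ← map_mul, mul_inv_cancel, map_one, mul_one]
      exact E.algebraMap_mem r
    | add x y _ _ hx hy => rw [mul_add, add_mul]; exact add_mem hx hy
    | mul x y _ _ hx hy =>
      have : lin ρ g * (x * y) * lin ρ g⁻¹ = (lin ρ g * x * lin ρ g⁻¹) * (lin ρ g * y * lin ρ g⁻¹) := by
        simp only [mul_assoc]
        rw [← mul_assoc (lin ρ g⁻¹) (lin ρ g), ← map_mul, inv_mul_cancel, map_one, one_mul]
      rw [this]
      exact mul_mem hx hy
  -- all orbits of `E` have one size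
  let O : V → Set V := fun v => (fun x : E => x.1 v) '' Set.univ
  have hOle : ∀ (g : G) (v : V), (O v).ncard ≤ (O (ρ g v)).ncard := by
    intro g v
    rw [← Set.ncard_image_of_injective (O v) (ρ g).injective]
    refine Set.ncard_le_ncard ?_ (Set.toFinite _)
    rintro _ ⟨_, ⟨x, -, rfl⟩, rfl⟩
    refine ⟨⟨_, hconj g x.1 x.2⟩, trivial, ?_⟩
    show ρ g (x.1 (ρ g⁻¹ (ρ g v))) = ρ g (x.1 v)
    rw [← LinearEquiv.mul_apply (ρ g⁻¹), ← map_mul, inv_mul_cancel, map_one]
    rfl
  have hdom : ∀ x y : E, x * y = 0 → x = 0 ∨ y = 0 := by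
    intro x y hxy
    have hv : ∀ v : V, x.1 v = 0 ∨ y.1 v = 0 := by
      intro v
      by_cases hw : x.1 v = 0
      · exact Or.inl hw
      right
      have hv0 : v ≠ 0 := fun e => hw (by rw [e, map_zero])
      have hsub : O (x.1 v) ⊆ O v := by
        rintro _ ⟨r, -, rfl⟩
        exact ⟨r * x, trivial, rfl⟩
      obtain ⟨g, hg⟩ := htr v (x.1 v) hv0 hw
      have heq : O (x.1 v) = O v := Set.eq_of_subset_of_ncard_le hsub (hg ▸ hOle g v) (Set.toFinite _)
      obtain ⟨r, -, hr⟩ : v ∈ O (x.1 v) := heq ▸ ⟨1, trivial, rfl⟩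
      have hyx : y * x = 0 := by
        rw [show y * x = x * y from Subtype.ext (hEc _ y.2 _ x.2).eq, hxy]
      have : y.1 v = (r * (y * x)).1 v := by
        conv_lhs => rw [← hr]
        show y.1 (r.1 (x.1 v)) = r.1 (y.1 (x.1 v))
        exact LinearMap.congr_fun (hEc _ y.2 _ r.2).eq (x.1 v)
      rw [this, hyx, mul_zero]
      rfl
    by_contra hne
    push Not at hne
    obtain ⟨u, hu⟩ : ∃ u, x.1 u ≠ 0 := by
      by_contra hc
      push Not at hc
      exact hne.1 (Subtype.ext (LinearMap.ext hc))
    obtain ⟨w, hw⟩ : ∃ w, y.1 w ≠ 0 := by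
      by_contra hc
      push Not at hc
      exact hne.2 (Subtype.ext (LinearMap.ext hc))
    rcases hv (u + w) with e | e <;> rw [map_add] at e
    · rw [(hv w).resolve_right hw, add_zero] at e
      exact hu e
    · rw [(hv u).resolve_left hu, zero_add] at e
      exact hw e
  letI : CommRing E := { (inferInstance : Ring E) with mul_comm := fun x y => Subtype.ext (hEc _ x.2 _ y.2).eq }
  haveI : Nontrivial E := by
    refine ⟨1, 0, fun e => ?_⟩
    obtain ⟨v, hv⟩ := exists_ne (0 : V)
    exact hv (LinearMap.congr_fun (congrArg Subtype.val e) v)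
  haveI : NoZeroDivisors E := ⟨fun {a b} hab => hdom a b hab⟩
  haveI : IsDomain E := NoZeroDivisors.to_isDomain _
  letI : Field E := (Finite.isField_of_domain E).toField
  haveI : Finite E := inferInstance
  refine ⟨Module.finrank (ZMod q) E, Module.finrank E V, Module.finrank_pos, Module.finrank_pos, ?_, ?_, ?_, ?_, ?_, ?_, ?_⟩
  · have hcE : Nat.card E = q ^ Module.finrank (ZMod q) E := by
      have := Module.natCard_eq_pow_finrank (K := ZMod q) (V := E)
      rwa [Nat.card_zmod] at this
    rw [← hcE]
    exact Module.natCard_eq_pow_finrank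
  · let u : A →* E := ((lin ρ).comp A.subtype).codRestrict E fun a => Algebra.subset_adjoin ⟨a, a.2, rfl⟩
    exact isCyclic_of_injective u.toHomUnits fun a b e =>
      Subtype.ext (lin_inj hinj (congrArg (fun z : Eˣ => ((z : E) : Module.End (ZMod q) V)) e))
  · let u : A →* E := ((lin ρ).comp A.subtype).codRestrict E fun a => Algebra.subset_adjoin ⟨a, a.2, rfl⟩
    have hu : Function.Injective u.toHomUnits := fun a b e => by
      have e1 := congrArg (fun z : Eˣ => ((z : E) : Module.End (ZMod q) V)) e
      exact Subtype.ext (lin_inj hinj e1)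
    have h1 := Subgroup.card_dvd_of_injective _ hu
    rw [Nat.card_units, Module.natCard_eq_pow_finrank (K := ZMod q) (V := E), Nat.card_zmod] at h1
    exact h1
  all_goals
    let c : G → E →ₐ[ZMod q] E := fun g =>
      { toFun := fun x => ⟨lin ρ g * x.1 * lin ρ g⁻¹, hconj g x.1 x.2⟩
        map_one' := Subtype.ext (show lin ρ g * 1 * lin ρ g⁻¹ = 1 by
          rw [mul_one, ← map_mul, mul_inv_cancel, map_one])
        map_mul' := fun x y => Subtype.ext (show lin ρ g * (x.1 * y.1) * lin ρ g⁻¹ = _ by
          show _ = (lin ρ g * x.1 * lin ρ g⁻¹) * (lin ρ g * y.1 * lin ρ g⁻¹)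
          simp only [mul_assoc]
          rw [← mul_assoc (lin ρ g⁻¹) (lin ρ g), ← map_mul, inv_mul_cancel, map_one, one_mul])
        map_zero' := Subtype.ext (show lin ρ g * 0 * lin ρ g⁻¹ = 0 by rw [mul_zero, zero_mul])
        map_add' := fun x y => Subtype.ext (show lin ρ g * (x.1 + y.1) * lin ρ g⁻¹ = _ by
          rw [mul_add, add_mul]; rfl)
        commutes' := fun r => Subtype.ext (show lin ρ g * algebraMap _ _ r * lin ρ g⁻¹ = algebraMap _ _ r by
          rw [← Algebra.commutes, mul_assoc, ← map_mul, mul_inv_cancel, map_one, mul_one]) }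
    have hc1 : ∀ x, c 1 x = x := fun x => Subtype.ext (show lin ρ 1 * x.1 * lin ρ 1⁻¹ = x.1 by
      rw [inv_one, map_one, one_mul, mul_one])
    have hcm : ∀ a b x, c (a * b) x = c a (c b x) := fun a b x => Subtype.ext (show _ * x.1 * _ = _ by
      show _ = lin ρ a * (lin ρ b * x.1 * lin ρ b⁻¹) * lin ρ a⁻¹
      rw [mul_inv_rev, map_mul, map_mul]
      simp only [mul_assoc])
    let φ : G →* (E ≃ₐ[ZMod q] E) :=
      { toFun := fun g => AlgEquiv.ofAlgHom (c g) (c g⁻¹)
          (AlgHom.ext fun x => by rw [AlgHom.comp_apply, ← hcm, mul_inv_cancel, hc1]; rfl)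
          (AlgHom.ext fun x => by rw [AlgHom.comp_apply, ← hcm, inv_mul_cancel, hc1]; rfl)
        map_one' := AlgEquiv.ext hc1
        map_mul' := fun a b => AlgEquiv.ext (hcm a b) }
    have hφ : ∀ g x, ((φ g x : E) : Module.End (ZMod q) V) * lin ρ g = lin ρ g * x.1 := fun g x => by
      show lin ρ g * x.1 * lin ρ g⁻¹ * lin ρ g = _
      rw [mul_assoc _ (lin ρ g⁻¹), ← map_mul, inv_mul_cancel, map_one, mul_one]
    have hker : φ.ker = centralizer (A : Set G) := by
      ext k
      rw [MonoidHom.mem_ker, mem_centralizer_iff]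
      refine ⟨fun hk a ha => lin_inj hinj ?_, fun hk => AlgEquiv.ext fun x => Subtype.ext ?_⟩
      · have := hφ k ⟨lin ρ a, Algebra.subset_adjoin ⟨a, ha, rfl⟩⟩
        rw [hk] at this
        simpa only [map_mul, AlgEquiv.one_apply] using this
      · have hkx : Commute (lin ρ k) x.1 :=
          Algebra.commute_of_mem_adjoin_of_forall_mem_commute x.2 (by
            rintro _ ⟨a, ha, rfl⟩
            exact (show Commute k a from (hk a ha).symm).map (lin ρ))
        show lin ρ k * x.1 * lin ρ k⁻¹ = x.1
        rw [hkx.eq, mul_assoc, ← map_mul, mul_inv_cancel, map_one, mul_one]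
  · rw [← hker, Subgroup.index_ker, ← IsGalois.card_aut_eq_finrank (ZMod q) E]
    exact Subgroup.card_subgroup_dvd_card _
  · exact ⟨_, inferInstance, inferInstance, φ, hker⟩
  · intro T hTC hT
    have hcomm : ∀ k ∈ centralizer (A : Set G), ∀ x : E, Commute (lin ρ k) x.1 := fun k hk x => by
      rw [← hker, MonoidHom.mem_ker] at hk
      have := hφ k x
      rw [hk] at this
      exact this.symm
    let L : centralizer (A : Set G) → Module.End E V := fun k =>
      { toFun := fun v => lin ρ k v
        map_add' := map_add _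
        map_smul' := fun x v => LinearMap.congr_fun (hcomm k k.2 x).eq v }
    have hind : ∀ S : Finset G, S ⊆ T → ∀ c : G → E,
        ∑ x ∈ S, (c x).1 * lin ρ x = 0 → ∀ x ∈ S, c x = 0 := by
      intro S
      induction S using Finset.induction_on with
      | empty => intro _ _ _ x hx; exact absurd hx (Finset.notMem_empty x)
      | @insert y S hy ih =>
        intro hS c hc
        rw [Finset.insert_subset_iff] at hS
        rw [Finset.sum_insert hy] at hc
        have hz : ∀ x ∈ S, c x = 0 := by
          intro x0 hx0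
          obtain ⟨u, huC, huA, hne⟩ := hT x0 (hS.2 hx0) y hS.1 (fun e => hy (e ▸ hx0))
          let Z : G → E := fun x => if hx : ⁅u, x⁆ ∈ A then ⟨lin ρ ⁅u, x⁆, Algebra.subset_adjoin ⟨_, hx, rfl⟩⟩ else 0
          have hZ : ∀ x ∈ T, lin ρ u * lin ρ x = (Z x).1 * lin ρ x * lin ρ u := fun x hx => by
            simp only [Z, dif_pos (huA x hx)]
            rw [← map_mul, ← map_mul, ← map_mul, commutatorElement_def]
            congr 1
            group
          have hterm : ∀ x ∈ T, lin ρ u * ((c x).1 * lin ρ x) = ((c x * Z x : E).1 * lin ρ x) * lin ρ u := fun x hx => by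
            rw [← mul_assoc, (hcomm u huC (c x)).eq, mul_assoc, hZ x hx]
            simp only [← mul_assoc]
            rfl
          have h2 : (c y * Z y : E).1 * lin ρ y + ∑ x ∈ S, (c x * Z x : E).1 * lin ρ x = 0 := by
            have h3 : (lin ρ u) * ((c y).1 * lin ρ y + ∑ x ∈ S, (c x).1 * lin ρ x) = 0 := by rw [hc, mul_zero]
            rw [mul_add, Finset.mul_sum, Finset.sum_congr rfl (fun x hx => hterm x (hS.2 hx)), hterm y hS.1,
              ← Finset.sum_mul, ← add_mul] at h3
            have h4 := congrArg (· * lin ρ u⁻¹) h3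
            simpa only [mul_assoc, ← map_mul, mul_inv_cancel, map_one, mul_one, zero_mul] using h4
          have h5 : (Z y).1 * ((c y).1 * lin ρ y + ∑ x ∈ S, (c x).1 * lin ρ x) = 0 := by rw [hc, mul_zero]
          have h6 : ∑ x ∈ S, (c x * (Z x - Z y) : E).1 * lin ρ x = 0 := by
            have e : ∀ x, (c x * (Z x - Z y) : E).1 * lin ρ x
                = (c x * Z x : E).1 * lin ρ x - (Z y * c x : E).1 * lin ρ x := fun x => by
              rw [mul_sub, mul_comm (c x) (Z y), ← sub_mul]
              rfl
            simp only [e, Finset.sum_sub_distrib]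
            rw [mul_add, Finset.mul_sum] at h5
            simp only [← mul_assoc] at h5
            have h7 : (Z y * c y : E).1 * lin ρ y + ∑ x ∈ S, (Z y * c x : E).1 * lin ρ x = 0 := h5
            rw [mul_comm (Z y) (c y), ← h2, add_right_inj] at h7
            rw [h7, sub_self]
          refine (mul_eq_zero.1 (ih hS.2 _ h6 x0 hx0)).resolve_right (sub_ne_zero.2 fun e => hne ?_)
          simp only [Z, dif_pos (huA x0 (hS.2 hx0)), dif_pos (huA y hS.1)] at e
          exact lin_inj hinj (congrArg Subtype.val e)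
        intro x hx
        rcases Finset.mem_insert.1 hx with rfl | hx
        · rw [Finset.sum_eq_zero (fun z hz' => by rw [hz z hz']; exact zero_mul _), add_zero] at hc
          refine Subtype.ext ?_
          have := congrArg (· * lin ρ x⁻¹) hc
          simp only [mul_assoc, ← map_mul, mul_inv_cancel, map_one, mul_one, zero_mul] at this
          exact this
        · exact hz x hx
    have hli : LinearIndependent E (fun i : T => L ⟨i.1, hTC i.1 i.2⟩) := by
      rw [Fintype.linearIndependent_iff]
      intro g hg i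
      let c : G → E := fun x => if hx : x ∈ T then g ⟨x, hx⟩ else 0
      have := hind T subset_rfl c (LinearMap.ext fun v => by
        have h1 := LinearMap.congr_fun hg v
        simp only [LinearMap.sum_apply, LinearMap.smul_apply, LinearMap.zero_apply] at h1
        rw [LinearMap.zero_apply, ← h1, LinearMap.sum_apply, ← Finset.sum_attach, Finset.univ_eq_attach]
        refine Finset.sum_congr rfl fun x _ => ?_
        simp only [c, dif_pos x.2]
        rfl) i.1 i.2
      simpa [c] using this
    have hdim : Module.finrank E (Module.End E V) = Module.finrank E V * Module.finrank E V :=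
      Module.finrank_linearMap E E V V
    refine ⟨?_, fun hTe k hk hkT l hl => ?_⟩
    · have := hli.fintype_card_le_finrank
      rwa [hdim, Fintype.card_coe] at this
    · haveI : Nonempty T := by
        have : 0 < Module.finrank E V := Module.finrank_pos
        exact (Finset.card_pos.1 (hTe ▸ Nat.mul_pos this this)).to_subtype
      have htop := hli.span_eq_top_of_card_eq_finrank (by rw [hdim, Fintype.card_coe, hTe])
      have hall : ∀ f : Module.End E V, L ⟨k, hk⟩ * f = f * L ⟨k, hk⟩ := by
        intro f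
        have hf : f ∈ (⊤ : Submodule E (Module.End E V)) := Submodule.mem_top
        rw [← htop] at hf
        induction hf using Submodule.span_induction with
        | mem f hf =>
          obtain ⟨i, rfl⟩ := hf
          exact LinearMap.ext fun v => LinearMap.congr_fun ((hkT i.1 i.2).map (lin ρ)).eq v
        | zero => rw [mul_zero, zero_mul]
        | add f g _ _ hf hg => rw [mul_add, add_mul, hf, hg]
        | smul a f _ hf => rw [mul_smul_comm, smul_mul_assoc, hf]
      refine lin_inj hinj ?_
      rw [map_mul, map_mul]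
      exact LinearMap.ext fun v => LinearMap.congr_fun (hall (L ⟨l, hl⟩)) v
  · intro he1
    obtain ⟨v₀, hv₀⟩ := exists_ne (0 : V)
    let θ : E →+ V :=
      { toFun := fun x => x.1 v₀, map_zero' := rfl, map_add' := fun _ _ => rfl }
    have hθi : Function.Injective θ := by
      refine (injective_iff_map_eq_zero θ).2 fun x hx => ?_
      by_contra hx0
      have h1 : ((x⁻¹ * x : E) : Module.End (ZMod q) V) v₀ = 0 := by
        show (x⁻¹ : E).1 (x.1 v₀) = 0
        rw [show x.1 v₀ = 0 from hx, map_zero]
      rw [inv_mul_cancel₀ hx0] at h1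
      exact hv₀ h1
    have hθc : Nat.card E = Nat.card V := by
      have := Module.natCard_eq_pow_finrank (K := E) (V := V)
      rw [he1, pow_one] at this
      exact this.symm
    have hθb : Function.Bijective θ := (Nat.bijective_iff_injective_and_card θ).2 ⟨hθi, hθc⟩
    constructor
    · haveI : Fintype E := Fintype.ofFinite E
      let f : {_x : Fin (Fintype.card E) // True} ≃ E := (Equiv.subtypeUnivEquiv fun _ => trivial).trans (Fintype.equivFin E).symm
      letI : Field ({_x : Fin (Fintype.card E) // True}) := f.field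
      let ι : {_x : Fin (Fintype.card E) // True} ≃+* E := f.ringEquiv
      refine ⟨{_x : Fin (Fintype.card E) // True}, inferInstance, inferInstance,
        (AddEquiv.ofBijective θ hθb).symm.trans ι.symm.toAddEquiv, fun g => ?_⟩
      obtain ⟨a, ha⟩ := hθb.2 (ρ g v₀)
      refine ⟨ι.symm a, (ι.trans (φ g).toRingEquiv).trans ι.symm, fun v => ?_⟩
      obtain ⟨x, rfl⟩ := hθb.2 v
      have e : ρ g (θ x) = θ (a * φ g x) := by
        show lin ρ g (x.1 v₀) = (a * φ g x : E).1 v₀
        rw [mul_comm a]
        show _ = ((φ g x : E) : Module.End (ZMod q) V) (a.1 v₀)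
        rw [show a.1 v₀ = lin ρ g v₀ from ha]
        exact (LinearMap.congr_fun (hφ g x) v₀).symm
      have es : ∀ y, (AddEquiv.ofBijective θ hθb).symm (θ y) = y := fun y =>
        (AddEquiv.ofBijective θ hθb).symm_apply_apply y
      simp only [AddEquiv.trans_apply, e, es, RingEquiv.toAddEquiv_eq_coe, RingEquiv.coe_toAddEquiv,
        map_mul, RingEquiv.trans_apply, RingEquiv.apply_symm_apply]
      rfl
    · intro k hk l hl
      have hlin : ∀ m ∈ centralizer (A : Set G), ∀ x : E, ρ m (x.1 v₀) = x.1 (ρ m v₀) := by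
        intro m hm x
        rw [← hker, MonoidHom.mem_ker] at hm
        have := LinearMap.congr_fun (hφ m x) v₀
        rw [hm] at this
        exact this.symm
      obtain ⟨a, ha⟩ := hθb.2 (ρ k v₀)
      obtain ⟨b, hb⟩ := hθb.2 (ρ l v₀)
      refine hinj (LinearEquiv.ext fun v => ?_)
      obtain ⟨x, rfl⟩ := hθb.2 v
      rw [map_mul, map_mul, LinearEquiv.mul_apply, LinearEquiv.mul_apply]
      show ρ k (ρ l (x.1 v₀)) = ρ l (ρ k (x.1 v₀))
      rw [hlin l hl, hlin k hk x, ← ha, ← hb]
      show ρ k ((x * b).1 v₀) = ρ l ((x * a).1 v₀)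
      rw [hlin k hk, hlin l hl, ← ha, ← hb]
      show ((x * b) * a).1 v₀ = ((x * a) * b).1 v₀
      rw [mul_right_comm]

end Cfsg.Lib.Recog.TransLin
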