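import Mathlib
import Cfsg.Agent.Lib.Solv.FrobeniusComplement

/-!
# Presentations of Z-groups in which distinct prime orders commute when normalising
-/

set_option autoImplicit false
set_option linter.style.haveILetI false
open Subgroup

namespace Cfsg.Lib.Recog.ZPres

variable {K : Type*} [Group K] [Finite K]

/-- Elements of distinct prime orders, one normalising the other's subgroup, commute. -/
def Norm (K : Type*) [Group K] : Prop :=
  ∀ z h : K, (orderOf z).Prime → (orderOf h).Prime → orderOf z ≠ orderOf h →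
    h ∈ normalizer ((zpowers z : Subgroup K) : Set K) → Commute z h

theorem presentation [IsZGroup K] (hN : Norm K) :
    ∃ n m r : ℕ, 0 < n ∧ 0 < m ∧ Nat.Coprime (r - 1) m ∧ Nat.Coprime n m ∧ 1 ≤ r ∧
      r ^ (n / ∏ p ∈ n.primeFactors, p) % m = 1 % m ∧
      Nonempty (K ≃* PresentedGroup
        ({FreeGroup.of (0 : Fin 2) ^ n, FreeGroup.of (1 : Fin 2) ^ m,
          (FreeGroup.of (0 : Fin 2))⁻¹ * FreeGroup.of 1 * FreeGroup.of 0 * (FreeGroup.of (1 : Fin 2) ^ r)⁻¹} :
          Set (FreeGroup (Fin 2)))) := by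
  classical
  set D := commutator K with hD
  haveI : IsCyclic D := IsZGroup.isCyclic_commutator K
  obtain ⟨b', hb'⟩ := IsCyclic.exists_generator (α := D)
  obtain ⟨C, hC⟩ := exists_right_complement'_of_coprime (N := D) (IsZGroup.coprime_commutator_index K)
  haveI : IsCyclic (Abelianization K) := inferInstance
  have hinj : Function.Injective ((Abelianization.of (G := K)).comp C.subtype) := by
    rw [← MonoidHom.ker_eq_bot_iff, eq_bot_iff]
    intro x hx
    rw [MonoidHom.mem_ker, MonoidHom.comp_apply] at hx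
    have hxD : (x : K) ∈ D := by
      rw [hD, ← Abelianization.ker_of K]
      exact hx
    have hmem : (x : K) ∈ D ⊓ C := ⟨hxD, x.2⟩
    rw [hC.disjoint.eq_bot, mem_bot] at hmem
    exact mem_bot.2 (Subtype.ext hmem)
  haveI : IsCyclic C := isCyclic_of_injective _ hinj
  obtain ⟨a', ha'⟩ := IsCyclic.exists_generator (α := C)
  set a : K := (a' : K) with ha
  set b : K := (b' : K) with hb
  have hDb : D = zpowers b := by
    refine le_antisymm (fun x hx => ?_) (zpowers_le.2 b'.2)
    obtain ⟨i, hi⟩ := hb' ⟨x, hx⟩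
    exact ⟨i, by simpa [hb] using congrArg Subtype.val hi⟩
  have hCa : C = zpowers a := by
    refine le_antisymm (fun x hx => ?_) (zpowers_le.2 a'.2)
    obtain ⟨i, hi⟩ := ha' ⟨x, hx⟩
    exact ⟨i, by simpa [ha] using congrArg Subtype.val hi⟩
  set n := orderOf a with hn
  set m := orderOf b with hm
  have hn0 : 0 < n := orderOf_pos a
  have hm0 : 0 < m := orderOf_pos b
  have hcop : Nat.Coprime n m := by
    have h := IsZGroup.coprime_commutator_index K
    rw [← hD, hC.symm.index_eq_card] at h
    rw [hDb, hCa, Nat.card_zpowers, Nat.card_zpowers] at h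
    exact h.symm
  have hDn : D.Normal := inferInstance
  have hmem : a⁻¹ * b * a ∈ zpowers b := by
    rw [← hDb]
    simpa using hDn.conj_mem b b'.2 a⁻¹
  obtain ⟨r₀, hr₀⟩ := mem_zpowers_iff_mem_range_orderOf.1 hmem |> Finset.mem_image.1
  set r := r₀ + m with hr
  have hr1 : 1 ≤ r := by omega
  have hconj : a⁻¹ * b * a = b ^ r := by
    rw [hr, pow_add, hm, pow_orderOf_eq_one, mul_one]
    exact hr₀.2.symm
  have hgen : closure ({a, b} : Set K) = ⊤ := by
    rw [eq_top_iff, ← hC.sup_eq_top, sup_le_iff]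
    exact ⟨hDb ▸ zpowers_le.2 (subset_closure (by simp)), hCa ▸ zpowers_le.2 (subset_closure (by simp))⟩
  -- subgroups of the cyclic normal subgroup are normal
  have hsubn : ∀ y ∈ zpowers b, (zpowers y).Normal := by
    intro y hy
    obtain ⟨i, rfl⟩ := mem_zpowers_iff.1 hy
    refine ⟨fun x hx g => ?_⟩
    obtain ⟨j, rfl⟩ := mem_zpowers_iff.1 hx
    obtain ⟨s, hs⟩ := mem_zpowers_iff.1 (hDb ▸ hDn.conj_mem b b'.2 g : g * b * g⁻¹ ∈ zpowers b)
    rw [← conj_zpow, ← conj_zpow, ← hs]
    refine ⟨s * j, ?_⟩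
    simp only [← zpow_mul]
    ring_nf
  have hcop1 : Nat.Coprime (r - 1) m := by
    set N' := zpowers (b ^ (r - 1)) with hN'
    haveI : N'.Normal := hsubn _ (pow_mem (mem_zpowers b) _)
    have hle : D ≤ N' := by
      have hcomm : ∀ x y : K ⧸ N', x * y = y * x := by
        have hab : (a : K ⧸ N') * b = (b : K ⧸ N') * a := by
          rw [← QuotientGroup.mk_mul, ← QuotientGroup.mk_mul, QuotientGroup.eq]
          have : (a * b)⁻¹ * (b * a) = b ^ (r - 1) := by
            have h2 : b ^ r = b * b ^ (r - 1) := by rw [← pow_succ']; congr 1; omega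
            calc (a * b)⁻¹ * (b * a) = b⁻¹ * (a⁻¹ * b * a) := by group
              _ = _ := by rw [hconj, h2, inv_mul_cancel_left]
          rw [this]
          exact mem_zpowers _
        have hcl : ∀ x : K, ∀ y ∈ ({a, b} : Set K), (x : K ⧸ N') * y = (y : K ⧸ N') * x := by
          intro x y hy
          have hx : x ∈ closure ({a, b} : Set K) := hgen ▸ mem_top x
          induction hx using closure_induction with
          | mem z hz =>
            rcases hz with rfl | rfl <;> rcases hy with rfl | rfl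
            exacts [rfl, hab, hab.symm, rfl]
          | one => simp
          | mul z w _ _ hz hw => exact (show Commute (_ : K ⧸ N') _ from hz).mul_left hw
          | inv z _ hz => exact (show Commute (_ : K ⧸ N') _ from hz).inv_left
        intro x y
        obtain ⟨x, rfl⟩ := QuotientGroup.mk_surjective x
        obtain ⟨y, rfl⟩ := QuotientGroup.mk_surjective y
        have hy : y ∈ closure ({a, b} : Set K) := hgen ▸ mem_top y
        induction hy using closure_induction with
        | mem z hz => exact hcl x z hz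
        | one => simp
        | mul z w _ _ hz hw => exact (show Commute (_ : K ⧸ N') _ from hz).mul_right hw
        | inv z _ hz => exact (show Commute (_ : K ⧸ N') _ from hz).inv_right
      rw [hD, _root_.commutator_def, commutator_le]
      intro x _ y _
      rw [← QuotientGroup.eq_one_iff]
      rw [commutatorElement_def]
      simp only [QuotientGroup.mk_mul, QuotientGroup.mk_inv]
      rw [hcomm (x : K ⧸ N') y]
      group
    have hcard := Subgroup.card_le_of_le hle
    rw [hDb, hN', Nat.card_zpowers, Nat.card_zpowers, ← hm, orderOf_pow, ← hm] at hcard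
    have hg : 0 < Nat.gcd m (r - 1) := Nat.gcd_pos_of_pos_left _ hm0
    by_contra hne
    have h2 : 2 ≤ Nat.gcd m (r - 1) := by
      rw [Nat.Coprime, Nat.gcd_comm] at hne
      omega
    exact absurd (Nat.div_lt_self hm0 h2) (not_lt.2 hcard)
  -- the action of the complement
  let q : MulAut D := MulAut.conjNormal a
  have hq : ∀ i : ℕ, q ^ i = 1 ↔ Commute (a ^ i) b := by
    intro i
    rw [show q ^ i = MulAut.conjNormal (a ^ i) from (map_pow _ _ _).symm]
    constructor
    · intro h
      have h1 := congrArg (fun φ : MulAut D => ((φ b' : D) : K)) h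
      simp only [MulAut.conjNormal_apply, MulAut.one_apply] at h1
      exact mul_inv_eq_iff_eq_mul.1 h1
    · intro h
      refine MulEquiv.ext fun x => Subtype.ext ?_
      obtain ⟨j, hj⟩ := mem_zpowers_iff.1 (hDb ▸ x.2 : (x : K) ∈ zpowers b)
      rw [MulAut.conjNormal_apply, MulAut.one_apply, ← hj, (h.zpow_right j).eq, mul_inv_cancel_right]
  have hprime : ∀ p ∈ n.primeFactors, q ^ (n / p) = 1 := by
    intro p hp
    obtain ⟨hpp, hpn, -⟩ := Nat.mem_primeFactors.1 hp
    rw [hq]
    have hc : orderOf (a ^ (n / p)) = p := orderOf_pow_orderOf_div hn0.ne' hpn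
    refine Cfsg.Lib.Solv.FrobCompl.commute_of_fixes_prime ?_ ?_ fun y hy hyp => ?_
    · rw [← hDb, normalizer_eq_top]; trivial
    · rw [hc, ← hm]
      exact Nat.Coprime.coprime_dvd_left hpn hcop
    · refine (hN y _ hyp (hc.symm ▸ hpp) ?_ ?_).symm
      · rw [hc]
        intro e
        have hd : orderOf y ∣ m := by
          obtain ⟨j, rfl⟩ := mem_zpowers_iff.1 hy
          exact orderOf_dvd_of_pow_eq_one (by
            rw [← zpow_natCast, ← zpow_mul, mul_comm, zpow_mul, zpow_natCast, hm, pow_orderOf_eq_one, one_zpow])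
        exact hpp.one_lt.ne' (Nat.eq_one_of_dvd_coprimes hcop hpn (e ▸ hd))
      · haveI := hsubn y hy
        rw [normalizer_eq_top]; trivial
  set k := n / ∏ p ∈ n.primeFactors, p with hk
  have hdk : orderOf q ∣ k := by
    set d := orderOf q
    have hdn : d ∣ n := orderOf_dvd_of_pow_eq_one ((hq n).2 (by rw [hn, pow_orderOf_eq_one]; exact Commute.one_left b))
    rw [hk]
    refine Nat.dvd_div_of_mul_dvd ?_
    have hrad : (∏ p ∈ n.primeFactors, p) ∣ n / d := by
      refine Finset.prod_primes_dvd _ (fun p hp => (Nat.prime_of_mem_primeFactors hp).prime) fun p hp => ?_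
      obtain ⟨-, hpn, -⟩ := Nat.mem_primeFactors.1 hp
      refine Nat.dvd_div_of_mul_dvd ?_
      have h := orderOf_dvd_of_pow_eq_one (hprime p hp)
      obtain ⟨w, hw⟩ := h
      refine ⟨w, ?_⟩
      rw [← Nat.div_mul_cancel hpn, hw]
      ring
    have h2 := Nat.mul_dvd_mul_right hrad d
    rwa [Nat.div_mul_cancel hdn] at h2
  have hak : Commute (a ^ k) b := (hq k).1 (orderOf_dvd_iff_pow_eq_one.1 hdk)
  have hiter : ∀ i : ℕ, (a ^ i)⁻¹ * b * a ^ i = b ^ (r ^ i) := by
    intro i
    induction i with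
    | zero => simp
    | succ i ih =>
      calc (a ^ (i + 1))⁻¹ * b * a ^ (i + 1) = a⁻¹ * ((a ^ i)⁻¹ * b * a ^ i) * a := by
            rw [pow_succ]; group
        _ = a⁻¹ * b ^ (r ^ i) * a := by rw [ih]
        _ = (a⁻¹ * b * a) ^ (r ^ i) := by
            have := conj_pow (i := r ^ i) (a := a⁻¹) (b := b)
            rw [inv_inv] at this
            exact this.symm
        _ = _ := by rw [hconj, ← pow_mul, pow_succ']
  have hmod : r ^ k % m = 1 % m := by
    have h := hiter k
    rw [mul_assoc, hak.symm.eq, inv_mul_cancel_left] at h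
    have := (pow_eq_pow_iff_modEq (x := b)).1 ((pow_one b).trans h)
    exact this.symm
  refine ⟨n, m, r, hn0, hm0, hcop1, hcop, hr1, hmod, ?_⟩
  set rels : Set (FreeGroup (Fin 2)) := {FreeGroup.of (0 : Fin 2) ^ n, FreeGroup.of (1 : Fin 2) ^ m,
    (FreeGroup.of (0 : Fin 2))⁻¹ * FreeGroup.of 1 * FreeGroup.of 0 * (FreeGroup.of (1 : Fin 2) ^ r)⁻¹} with hrels
  have hlift : ∀ w ∈ rels, FreeGroup.lift ![a, b] w = 1 := by
    rintro w (rfl | rfl | rfl)
    · simp [hn, pow_orderOf_eq_one]
    · simp [hm, pow_orderOf_eq_one]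
    · simp [hconj]
  let ψ : PresentedGroup rels →* K := PresentedGroup.toGroup hlift
  let A : PresentedGroup rels := PresentedGroup.of 0
  let B : PresentedGroup rels := PresentedGroup.of 1
  have hψA : ψ A = a := PresentedGroup.toGroup.of hlift
  have hψB : ψ B = b := PresentedGroup.toGroup.of hlift
  have hone : ∀ w ∈ rels, PresentedGroup.mk rels w = 1 := fun w hw => PresentedGroup.one_of_mem hw
  have hAn : A ^ n = 1 := (map_pow _ _ _).symm.trans (hone _ (Or.inl rfl))
  have hBm : B ^ m = 1 := (map_pow _ _ _).symm.trans (hone _ (Or.inr (Or.inl rfl)))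
  have hBA : B * A = A * B ^ r := by
    have h := hone _ (Or.inr (Or.inr rfl))
    simp only [map_mul, map_inv, map_pow] at h
    have h2 : A⁻¹ * B * A * (B ^ r)⁻¹ = 1 := h
    rw [mul_inv_eq_one] at h2
    rw [← h2]; group
  have hBj : ∀ j : ℕ, B ^ j * A = A * B ^ (j * r) := by
    intro j
    induction j with
    | zero => simp
    | succ j ih => rw [pow_succ', mul_assoc, ih, ← mul_assoc, hBA, mul_assoc, ← pow_add]; congr 2; ring
  have hBi : ∀ i j : ℕ, B ^ j * A ^ i = A ^ i * B ^ (j * r ^ i) := by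
    intro i
    induction i with
    | zero => simp
    | succ i ih =>
      intro j
      rw [pow_succ, ← mul_assoc, ih, mul_assoc, hBj, ← mul_assoc]
      congr 2; ring
  have hform : ∀ w : PresentedGroup rels, ∃ i j : ℕ, w = A ^ i * B ^ j := by
    have hmul : ∀ u v, (∃ i j : ℕ, u = A ^ i * B ^ j) → (∃ i j : ℕ, v = A ^ i * B ^ j) →
        ∃ i j : ℕ, u * v = A ^ i * B ^ j := by
      rintro u v ⟨i, j, rfl⟩ ⟨i', j', rfl⟩
      refine ⟨i + i', j * r ^ i' + j', ?_⟩
      rw [pow_add, pow_add, mul_assoc (A ^ i), ← mul_assoc (B ^ j), hBi, mul_assoc, mul_assoc]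
    intro w
    have hw : w ∈ closure (Set.range (PresentedGroup.of (rels := rels))) := by
      rw [PresentedGroup.closure_range_of]; trivial
    induction hw using closure_induction with
    | mem z hz =>
      obtain ⟨i, rfl⟩ := hz
      fin_cases i
      · exact ⟨1, 0, by simp [A]⟩
      · exact ⟨0, 1, by simp [B]⟩
    | one => exact ⟨0, 0, by simp⟩
    | mul u v _ _ hu hv => exact hmul u v hu hv
    | inv u _ hu =>
      obtain ⟨i, j, rfl⟩ := hu
      have e1 : (B ^ j)⁻¹ = B ^ ((m - 1) * j) := by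
        refine inv_eq_of_mul_eq_one_right ?_
        rw [← pow_add, show j + (m - 1) * j = m * j by
          obtain ⟨m', hm'⟩ := Nat.exists_eq_add_of_le hm0; rw [hm']; simp; ring, pow_mul, hBm, one_pow]
      have e2 : (A ^ i)⁻¹ = A ^ ((n - 1) * i) := by
        refine inv_eq_of_mul_eq_one_right ?_
        rw [← pow_add, show i + (n - 1) * i = n * i by
          obtain ⟨n', hn'⟩ := Nat.exists_eq_add_of_le hn0; rw [hn']; simp; ring, pow_mul, hAn, one_pow]
      rw [mul_inv_rev, e1, e2]
      exact hmul _ _ ⟨0, (m - 1) * j, by simp⟩ ⟨(n - 1) * i, 0, by simp⟩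
  have hsurj : Function.Surjective ψ := by
    rw [← MonoidHom.range_eq_top, eq_top_iff, ← hgen, closure_le]
    rintro y (rfl | rfl)
    exacts [⟨A, hψA⟩, ⟨B, hψB⟩]
  have hinjψ : Function.Injective ψ := by
    refine (injective_iff_map_eq_one _).2 fun w hw => ?_
    obtain ⟨i, j, rfl⟩ := hform w
    rw [map_mul, map_pow, map_pow, hψA, hψB] at hw
    have hi : a ^ i ∈ D ⊓ C := by
      refine ⟨?_, hCa ▸ pow_mem (mem_zpowers a) i⟩
      show a ^ i ∈ D
      rw [eq_inv_of_mul_eq_one_left hw, hDb]
      exact inv_mem (pow_mem (mem_zpowers b) j)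
    rw [hC.disjoint.eq_bot, mem_bot] at hi
    rw [hi, one_mul] at hw
    obtain ⟨u, hu⟩ := orderOf_dvd_of_pow_eq_one hi
    obtain ⟨v, hv⟩ := orderOf_dvd_of_pow_eq_one hw
    rw [hu, hv, pow_mul, pow_mul, ← hn, ← hm, hAn, hBm, one_pow, one_pow, one_mul]
  exact ⟨(MulEquiv.ofBijective ψ ⟨hinjψ, hsurj⟩).symm⟩

end Cfsg.Lib.Recog.ZPres
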